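import Cfsg.Agent.H84.LF.Form
import Cfsg.Agent.H8.U62.Final
import Cfsg.Agent.H3.Simple
import Mathlib.LinearAlgebra.QuadraticForm.Radical

/-!
# A unitary space from an isometry of order three without fixed points
-/

set_option autoImplicit false
set_option linter.unusedSectionVars false
set_option maxHeartbeats 1000000

namespace Cfsg.Agent.H84.LF

open Matrix Cfsg.Agent.H8.U62 Cfsg.Agent.H8.U62.Setup QuadraticMap

/-- The unitary space attached to an isometry of order three commuting with a large group. -/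
theorem exists_frame (F : Type) [Setup F] {V : Type*} [AddCommGroup V] [Module (ZMod 2) V] [Finite V]
    (qf : QuadraticForm (ZMod 2) V) (hnd : LinearMap.Nondegenerate (polarBilin qf)) (hcardV : Nat.card V = 4096)
    (h2V : ∀ v : V, v + v = 0) {M : Type*} [Group M] [Finite M] (α : M →* AddMonoid.End V)
    (αq : ∀ m v, qf (α m v) = qf v) (x0 : M) (T : AddMonoid.End V) (hTdef : T = α x0)
    (T3 : ∀ v, T (T (T v)) = v) (Tne : T ≠ 1) (Tcomm : ∀ m v, α m (T v) = T (α m v))
    (hrep : ∀ U : AddSubgroup V, Nat.card U < 4096 → (∀ u ∈ U, T u = u) → (∀ m, ∀ u ∈ U, α m u ∈ U) →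
      ∀ m, ∀ u ∈ U, α m u = u)
    (Q' : Subgroup M) (hker : ∀ m, (∀ v, α m v = v) ↔ m ∈ Q') (hidx : Q'.index = 9797760) :
    ∃ (κ : V ≃+ (Fin 6 → F)) (gu : M →* GU 6 F 2),
      (∀ m v, ((gu m).1 : Matrix (Fin 6) (Fin 6) F) *ᵥ κ v = κ (α m v)) ∧
      (∀ v, hermForm 6 F 2 (κ v) (κ v) = 0 ↔ qf v = 0) ∧ gu.ker = Q' ∧
      ((gu x0).1 : Matrix (Fin 6) (Fin 6) F) = (om : F) • 1 := by
  classical
  have αmul : ∀ (a b : M) (v : V), α (a * b) v = α a (α b v) := fun a b v => by rw [map_mul]; rfl
  have αone : ∀ v : V, α 1 v = v := fun v => by rw [map_one]; rfl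
  -- decomposition
  let UF : AddSubgroup V :=
    { carrier := {v | T v = v}
      zero_mem' := map_zero T
      add_mem' := fun {a b} (ha : T a = a) (hb : T b = b) => by
        show T (a + b) = a + b
        rw [map_add, ha, hb]
      neg_mem' := fun {a} (ha : T a = a) => by
        show T (-a) = -a
        rw [map_neg, ha] }
  let W : AddSubgroup V :=
    { carrier := {v | v + T v + T (T v) = 0}
      zero_mem' := by simp
      add_mem' := fun {a b} (ha : a + T a + T (T a) = 0) (hb : b + T b + T (T b) = 0) => by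
        show a + b + T (a + b) + T (T (a + b)) = 0
        simp only [map_add]
        calc _ = (a + T a + T (T a)) + (b + T b + T (T b)) := by abel
          _ = 0 := by rw [ha, hb, add_zero]
      neg_mem' := fun {a} (ha : a + T a + T (T a) = 0) => by
        show -a + T (-a) + T (T (-a)) = 0
        simp only [map_neg]
        calc _ = -(a + T a + T (T a)) := by abel
          _ = 0 := by rw [ha, neg_zero] }
  have negV : ∀ v : V, -v = v := fun v => neg_eq_of_add_eq_zero_left (h2V v)
  have hdec : ∀ v : V, (v + T v + T (T v)) ∈ UF ∧ v + (v + T v + T (T v)) ∈ W := by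
    intro v
    constructor
    · show T (v + T v + T (T v)) = _
      simp only [map_add, T3]
      abel
    · show _ + _ + _ = (0 : V)
      simp only [map_add, T3]
      calc _ = (v + v) + (T v + T v) + (T (T v) + T (T v)) + ((v + T v + T (T v)) + (v + T v + T (T v))) := by abel
        _ = 0 := by simp only [h2V, add_zero]
  have hdisj : ∀ v, v ∈ UF → v ∈ W → v = 0 := by
    intro v (h1 : T v = v) (h2 : v + T v + T (T v) = 0)
    rwa [h1, h1, h2V, zero_add] at h2
  let dec : UF × W ≃ V := Equiv.ofBijective (fun p => p.1.1 + p.2.1) ⟨by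
      rintro ⟨a, b⟩ ⟨a', b'⟩ (e : a.1 + b.1 = a'.1 + b'.1)
      have : a.1 - a'.1 = b'.1 - b.1 := by
        calc a.1 - a'.1 = (a.1 + b.1) - b.1 - a'.1 := by abel
          _ = _ := by rw [e]; abel
      have h0 := hdisj _ (UF.sub_mem a.2 a'.2) (this ▸ W.sub_mem b'.2 b.2)
      have h0' : b'.1 - b.1 = 0 := this ▸ h0
      exact Prod.ext (Subtype.ext (sub_eq_zero.1 h0)) (Subtype.ext (sub_eq_zero.1 h0').symm), fun v =>
    ⟨(⟨_, (hdec v).1⟩, ⟨_, (hdec v).2⟩), by
      show (v + T v + T (T v)) + (v + (v + T v + T (T v))) = v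
      calc _ = v + ((v + T v + T (T v)) + (v + T v + T (T v))) := by abel
        _ = v := by rw [h2V, add_zero]⟩⟩
  have hcardUW : Nat.card UF * Nat.card W = 4096 := by rw [← Nat.card_prod, Nat.card_congr dec, hcardV]
  have hU4096 : Nat.card UF < 4096 := by
    obtain ⟨v, hv⟩ : ∃ v, T v ≠ v := by
      by_contra h; push Not at h; exact Tne (AddMonoidHom.ext h)
    have hW2 : 1 < Nat.card W := Finite.one_lt_card_iff_nontrivial.2
      ⟨⟨⟨_, (hdec v).2⟩, 0, fun e => hv (by
        have e' : v + (v + T v + T (T v)) = 0 := congrArg Subtype.val e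
        have hu : T (v + T v + T (T v)) = _ := (hdec v).1
        rw [← eq_neg_of_add_eq_zero_left e' |>.trans (negV _)] at hu
        exact hu)⟩⟩
    nlinarith [Nat.card_pos (α := UF)]
  have hUfix : ∀ m : M, ∀ u ∈ UF, α m u = u :=
    hrep UF hU4096 (fun u hu => hu) fun m u hu => by
      show T (α m u) = α m u
      rw [← Tcomm, show T u = u from hu]
  -- the field of four elements
  let TW : W →+ W := AddMonoidHom.codRestrict (AddMonoidHom.comp T W.subtype) W fun w => by
    show T w.1 + T (T w.1) + T (T (T w.1)) = 0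
    rw [← map_add, ← map_add]
    rw [show w.1 + T w.1 + T (T w.1) = 0 from w.2, map_zero]
  have hT2 : ∀ w : W, TW (TW w) = TW w + w := fun w => Subtype.ext (by
    show T (T w.1) = T w.1 + w.1
    calc T (T w.1) = (w.1 + T w.1 + T (T w.1)) + (T w.1 + w.1) := by
          symm
          calc _ = (w.1 + w.1) + (T w.1 + T w.1) + T (T w.1) := by abel
            _ = _ := by rw [h2V, h2V, add_zero, zero_add]
      _ = T w.1 + w.1 := by rw [show w.1 + T w.1 + T (T w.1) = 0 from w.2, zero_add])
  have h2W : ∀ w : W, w + w = 0 := fun w => Subtype.ext (h2V _)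
  letI : Module F W := fourModule TW h2W hT2
  have hsmul : ∀ (a b : Bool) (w : W), fe (om : F) a b • w = bW a w + bW b (TW w) := scal_fe TW
  have hom_smul : ∀ w : W, (om : F) • w = TW w := fun w => by
    have := hsmul false true w
    simpa [fe, bF, bW] using this
  let β : V → V → ZMod 2 := fun u v => polarBilin qf u v
  have β_alt : ∀ u, β u u = 0 := fun u => by
    show polar qf u u = 0
    rw [polar_self, two_nsmul]
    exact CharTwo.add_self_eq_zero _
  have β_symm : ∀ u v, β u v = β v u := fun u v => polar_comm _ _ _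
  have β_α : ∀ (c : M) u v, β (α c u) (α c v) = β u v := fun c u v => by
    show polar qf _ _ = polar qf _ _
    rw [polar, polar, ← map_add, αq, αq, αq]
  have β_T : ∀ u v, β (T u) (T v) = β u v := fun u v => by rw [hTdef]; exact β_α _ _ _
  have αT : ∀ v, qf (T v) = qf v := fun v => by rw [hTdef]; exact αq _ _
  have β_add : ∀ u u' v, β (u + u') v = β u v + β u' v := fun u u' v => by simp [β]
  have β_add' : ∀ u v v', β u (v + v') = β u v + β u v' := fun u v v' => by simp [β]
  have β_perp : ∀ u ∈ UF, ∀ w ∈ W, β w u = 0 := by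
    intro u hu w hw
    have h1 : β (T w) u = β w u := by
      conv_lhs => rw [← show T u = u from hu]
      exact β_T _ _
    have h3 : β (T (T w)) u = β w u := by
      conv_lhs => rw [← show T u = u from hu]
      rw [β_T]; exact h1
    have h0 : β (w + T w + T (T w)) u = 0 := by
      rw [show w + T w + T (T w) = 0 from hw]; simp [β]
    rw [β_add, β_add, h1, h3, CharTwo.add_self_eq_zero, zero_add] at h0
    exact h0
  have : CharP F 2 := CharTwo.of_one_ne_zero_of_two_eq_zero one_ne_zero (by linear_combination two (F := F))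
  let cst : ZMod 2 →+* F := ZMod.castHom (dvd_refl 2) F
  let BB : W → W → F := fun u v => cst (β u.1 (T (T v.1))) + om * cst (β u.1 v.1)
  have cst_symm : ∀ u v : V, β v (T (T u)) = β u (T v) := fun u v => by
    rw [β_symm u, ← β_T v (T (T u))]
    show β (T v) (T (T (T u))) = _
    rw [T3]
  have hT2V : ∀ w : W, T (T w.1) = T w.1 + w.1 := fun w => congrArg Subtype.val (hT2 w)
  have BB_add : ∀ u u' v, BB (u + u') v = BB u v + BB u' v := fun u u' v => by
    simp only [BB, AddSubgroup.coe_add, β_add, map_add]; ring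
  have BB_add' : ∀ u v v', BB u (v + v') = BB u v + BB u v' := fun u v v' => by
    simp only [BB, AddSubgroup.coe_add, map_add, β_add']; ring
  have BB_om' : ∀ u v, BB u (TW v) = om * BB u v := fun u v => by
    show cst (β u.1 (T (T (T v.1)))) + om * cst (β u.1 (T v.1)) = _
    rw [T3]
    simp only [BB, hT2V v, β_add', map_add]
    linear_combination -(cst (β u.1 v.1)) * hom (F := F) - (om * cst (β u.1 v.1)) * two (F := F)
  have BB_om : ∀ u v, BB (TW u) v = om * om * BB u v := fun u v => by
    have h1 : β (T u.1) (T (T v.1)) = β u.1 (T v.1)  := β_T _ _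
    have h3 : β (T u.1) v.1 = β u.1 (T (T v.1)) := by
      conv_lhs => rw [← T3 v.1]
      exact β_T _ _
    show cst (β (T u.1) (T (T v.1))) + om * cst (β (T u.1) v.1) = _
    rw [h1, h3]
    simp only [BB, hT2V v, β_add', map_add]
    linear_combination -(cst (β u.1 (T v.1)) + cst (β u.1 v.1) + om * cst (β u.1 v.1) + cst (β u.1 v.1)) * hom (F := F) -
      (cst (β u.1 v.1) + om * cst (β u.1 v.1)) * two (F := F)
  have BBzero : ∀ v, BB 0 v = 0 := fun v => by simp [BB, β]
  have BBzero' : ∀ u, BB u 0 = 0 := fun u => by simp [BB, β]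
  let BL : W →ₛₗ[sigmaF F] W →ₗ[F] F := LinearMap.mk₂'ₛₗ (sigmaF F) (RingHom.id F) BB BB_add
    (fun c u v => by
      obtain ⟨a, b, rfl⟩ := exists_fe c
      rw [hsmul]
      show BB _ v = (fe om a b * fe om a b) * BB u v
      cases a <;> cases b <;> simp [bW, fe, bF, BB_add, BB_om, BBzero]
      linear_combination (-(BB u v)) * om * two (F := F))
    BB_add'
    (fun c u v => by
      obtain ⟨a, b, rfl⟩ := exists_fe c
      rw [hsmul]
      show BB u _ = fe om a b * BB u v
      cases a <;> cases b <;> simp [bW, fe, bF, BB_add', BB_om', BBzero']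
      ring)
  have hcst : ∀ c : ZMod 2, cst c = fe (om : F) (decide (c = 1)) false := by
    intro c
    have : c = 0 ∨ c = 1 := by revert c; decide
    rcases this with rfl | rfl <;> simp [fe, bF]
  have hpair : ∀ a b : ZMod 2, cst a + om * cst b = 0 ↔ a = 0 ∧ b = 0 := by
    intro a b
    have e : cst a + om * cst b = fe (om : F) (decide (a = 1)) (decide (b = 1)) := by
      rw [hcst, hcst]; simp [fe, bF]
    rw [e, fe_eq_zero_iff]
    clear e; revert a b; decide
  have hH : H3.IsHerm BL 2 := by
    refine ⟨Setup.hF, fun x => (pow_two x).symm, fun u v => ?_, fun u hu => ?_⟩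
    · show BB u v * BB u v = BB v u
      have hsq : ∀ c : ZMod 2, cst c * cst c = cst c := fun c => by
        rw [← map_mul]; congr 1; revert c; decide
      simp only [BB, cst_symm u.1 v.1, β_symm v.1 u.1, hT2V v, β_add', map_add]
      have e1 := hsq (β u.1 (T v.1))
      have e2 := hsq (β u.1 v.1)
      linear_combination e1 + (1 + 2 * om + om * om) * e2 + cst (β u.1 v.1) * hom (F := F) +
        (cst (β u.1 (T v.1)) * cst (β u.1 v.1) * (1 + om) + cst (β u.1 v.1) * (1 + om)) * two (F := F)
    · refine Subtype.ext (hnd.1 _ fun v => ?_)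
      obtain ⟨⟨a, b⟩, rfl⟩ := dec.surjective v
      show β u.1 (a.1 + b.1) = 0
      rw [β_add', β_perp _ a.2 _ u.2, ((hpair _ _).1 (hu b)).2, add_zero]
  obtain ⟨d, hd⟩ : ∃ d, Module.finrank F W = d := ⟨_, rfl⟩
  obtain ⟨b, hb⟩ := hH.exists_orth_basis hd
  have hcardW : Nat.card W = 4 ^ d := by
    rw [Module.natCard_eq_pow_finrank (K := F), Nat.card_eq_fintype_card, Setup.card, hd]
  set κ : W ≃ₗ[F] (Fin d → F) := b.equivFun with hκ
  have hherm : ∀ u v : W, hermForm d F 2 (κ u) (κ v) = BB v u := by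
    intro u v
    show _ = BL v u
    conv_rhs => rw [← b.sum_equivFun u, ← b.sum_equivFun v]
    simp only [map_sum, LinearMap.sum_apply, map_smul, LinearMap.map_smulₛₗ, LinearMap.smul_apply, hb _ _,
      smul_eq_mul, mul_ite, mul_one, mul_zero, Finset.sum_ite_eq, Finset.sum_ite_eq', Finset.mem_univ, if_true]
    refine Finset.sum_congr rfl fun j _ => ?_
    show κ u j * κ v j ^ 2 = κ u j * (κ v j * κ v j)
    rw [pow_two]
  have memW : ∀ (m : M) (w : W), α m w.1 ∈ W := fun m w => by
    show α m w.1 + T (α m w.1) + T (T (α m w.1)) = 0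
    rw [← Tcomm, ← Tcomm, ← map_add, ← map_add, show w.1 + T w.1 + T (T w.1) = 0 from w.2, map_zero]
  let lin : M → (W →ₗ[F] W) := fun m =>
    { toFun := fun w => ⟨α m w.1, memW m w⟩
      map_add' := fun u v => Subtype.ext (map_add _ _ _)
      map_smul' := fun c w => Subtype.ext (by
        obtain ⟨a, b', rfl⟩ := exists_fe c
        simp only [RingHom.id_apply, hsmul]
        cases a <;> cases b' <;> simp [bW, TW] <;> exact Tcomm _ _) }
  have lin_inv : ∀ (m : M) (w : W), lin m⁻¹ (lin m w) = w := fun m w => Subtype.ext (by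
    show α m⁻¹ (α m w.1) = w.1
    rw [← αmul, inv_mul_cancel, αone])
  let eqv : M → ((Fin d → F) ≃ₗ[F] (Fin d → F)) := fun m =>
    κ.symm.trans (({ lin m with invFun := lin m⁻¹, left_inv := lin_inv m, right_inv := fun w => by simpa using lin_inv m⁻¹ w } : W ≃ₗ[F] W).trans κ)
  have heqv : ∀ (m : M) (w : W), eqv m (κ w) = κ (lin m w) := fun m w => by simp [eqv]
  have hiso : ∀ (m : M) (x y : Fin d → F), hermForm d F 2 (eqv m x) (eqv m y) = hermForm d F 2 x y := by
    intro m x y
    obtain ⟨u, rfl⟩ := κ.surjective x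
    obtain ⟨v, rfl⟩ := κ.surjective y
    rw [heqv, heqv, hherm, hherm]
    show cst (β (α m v.1) (T (T (α m u.1)))) + om * cst (β (α m v.1) (α m u.1)) = _
    rw [← Tcomm, ← Tcomm, β_α, β_α]
  have hgu : ∀ (m : M) (x : Fin d → F),
      ((H3.guOfEquiv (eqv m) (hiso m)).1 : Matrix (Fin d) (Fin d) F) *ᵥ x = eqv m x :=
    fun m x => H3.guOfEquiv_mulVec _ _ x
  let gu : M →* GU d F 2 := MonoidHom.mk' (fun m => H3.guOfEquiv (eqv m) (hiso m)) fun a b => by
    refine Subtype.ext (Units.ext (Matrix.ext fun i j => ?_))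
    have h1 := congrFun (hgu (a * b) (Pi.single j 1)) i
    rw [Matrix.mulVec_single_one] at h1
    obtain ⟨w, hw⟩ := κ.surjective (Pi.single j 1)
    have h3 : eqv (a * b) (Pi.single j 1) = eqv a (eqv b (Pi.single j 1)) := by
      rw [← hw, heqv, heqv, heqv]
      exact congrArg κ (Subtype.ext (αmul _ _ _))
    rw [h3, ← hgu, ← hgu, Matrix.mulVec_mulVec, Matrix.mulVec_single_one] at h1
    exact h1
  have gu_apply : ∀ (m : M) (w : W), ((gu m).1 : Matrix (Fin d) (Fin d) F) *ᵥ κ w = κ (lin m w) :=
    fun m w => (hgu m _).trans (heqv m w)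
  have gu_ker : ∀ m : M, gu m = 1 → m ∈ Q' := by
    intro m hm
    refine (hker m).1 fun v => ?_
    obtain ⟨⟨u, w⟩, rfl⟩ := dec.surjective v
    show α m (u.1 + w.1) = u.1 + w.1
    rw [map_add, hUfix _ _ u.2]
    congr 1
    have h1 := gu_apply m w
    rw [hm] at h1
    simp only [OneMemClass.coe_one, Units.val_one, Matrix.one_mulVec] at h1
    exact (congrArg Subtype.val (κ.injective h1)).symm
  have hkerQ : gu.ker = Q' := by
    ext m
    refine ⟨fun h => gu_ker m h, fun h => ?_⟩
    refine MonoidHom.mem_ker.2 (Subtype.ext (Units.ext (Matrix.ext fun i j => ?_)))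
    obtain ⟨w, hw⟩ := κ.surjective (Pi.single j 1)
    have h1 := gu_apply m w
    rw [hw, Matrix.mulVec_single_one] at h1
    have : lin m w = w := Subtype.ext (by
      show α m w.1 = w.1
      exact (hker m).2 h _)
    rw [this, hw] at h1
    have := congrFun h1 i
    simpa [Pi.single_apply, Matrix.one_apply, eq_comm] using this
  have hMQ : Nat.card gu.range = 9797760 := by rw [← Subgroup.index_ker, hkerQ, hidx]
  have hU0 : ∀ u ∈ UF, u = 0 := by
    by_contra hno
    push Not at hno
    obtain ⟨u, hu, hu0⟩ := hno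
    have : 1 < Nat.card UF := Finite.one_lt_card_iff_nontrivial.2 ⟨⟨⟨u, hu⟩, 0, fun e => hu0 (congrArg Subtype.val e)⟩⟩
    have hW : Nat.card W < 4096 := by nlinarith [Nat.card_pos (α := W)]
    rw [hcardW] at hW
    have hd6 : d < 6 := by
      by_contra h
      have : 4 ^ 6 ≤ 4 ^ d := Nat.pow_le_pow_right (by norm_num) (by omega)
      omega
    have hdvd : Nat.card gu.range ∣ Nat.card (GU d F 2) := Subgroup.card_subgroup_dvd_card _
    rw [hMQ, H3.card_GU Setup.hF] at hdvd
    interval_cases d <;> simp [Finset.prod_range_succ, Nat.even_iff] at hdvd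
  have hallW : ∀ v : V, v ∈ W := fun v => by
    have := (hdec v).2
    rwa [hU0 _ (hdec v).1, add_zero] at this
  have hd6 : d = 6 := by
    have h1 : Nat.card W = 4096 := by
      rw [← hcardV]
      exact Nat.card_congr (Equiv.subtypeUnivEquiv hallW)
    rw [hcardW, show (4096 : ℕ) = 4 ^ 6 by norm_num] at h1
    exact Nat.pow_right_injective (by norm_num) h1
  subst hd6
  let κ' : V ≃+ (Fin 6 → F) :=
    (({ toFun := fun v => ⟨v, hallW v⟩, invFun := Subtype.val, left_inv := fun _ => rfl, right_inv := fun _ => rfl,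
        map_add' := fun _ _ => rfl } : V ≃+ W)).trans κ.toAddEquiv
  refine ⟨κ', gu, fun m v => ?_, fun v => ?_, hkerQ, ?_⟩
  · exact gu_apply m ⟨v, hallW v⟩
  · show hermForm 6 F 2 (κ ⟨v, hallW v⟩) (κ ⟨v, hallW v⟩) = 0 ↔ _
    rw [hherm]
    have hqq : ∀ w : W, BB w w = cst (qf w.1) := by
      intro w
      simp only [BB]
      rw [β_alt, map_zero, mul_zero, add_zero]
      congr 1
      show polar qf w.1 (T (T w.1)) = qf w.1
      have e : w.1 + T (T w.1) = T w.1 := by rw [hT2V w, add_left_comm, h2V, add_zero]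
      rw [polar, e, αT, αT, αT]
      generalize qf w.1 = t
      revert t; decide
    rw [hqq, map_eq_zero_iff _ cst.injective]
  · refine Matrix.ext fun i j => ?_
    obtain ⟨w, hw⟩ := κ.surjective (Pi.single j 1)
    have h1 := gu_apply x0 w
    rw [hw, Matrix.mulVec_single_one] at h1
    rw [show lin x0 w = (om : F) • w by rw [hom_smul]; exact Subtype.ext (by show α x0 w.1 = T w.1; rw [hTdef]),
      map_smul, hw] at h1
    have := congrFun h1 i
    simpa [Pi.single_apply, Matrix.one_apply, eq_comm] using this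

end Cfsg.Agent.H84.LF
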