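import Cfsg.Agent.H84.LF.Rep
import Cfsg.Agent.H84.LF.Space
import Cfsg.Agent.H18.LargeQuotient
import Cfsg.Agent.H18.ExtraspecialForm
import Cfsg.Agent.H18.OctadLarge
import Cfsg.Prelude.Def_MonsterType

/-!
# A group of large Fischer type acts on `Q` modulo its centre through a triple cover of U4(3)
-/

set_option autoImplicit false
set_option linter.unusedSectionVars false
set_option maxRecDepth 20000
set_option maxHeartbeats 1000000

namespace Cfsg.Agent.H84.LF

open scoped commutatorElement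
open Matrix Cfsg.Agent.H8.U62 Cfsg.Agent.H8.U62.Setup QuadraticMap

variable {G : Type*} [Group G]

/-- `Q` modulo its centre as a unitary space for a subgroup of index two of the centralizer. -/
structure Model (F : Type) [Setup F] (z : G) (Q : Subgroup (Subgroup.centralizer ({z} : Set G))) where
  i : Fin 3
  M : Subgroup (Subgroup.centralizer ({z} : Set G))
  Mn : M.Normal
  M2 : M.index = 2
  QM : Q ≤ M
  φ : Subgroup.centralizer ({z} : Set G) → (Fin 6 → F)
  ρ : M →* SU6 F
  sing : H18.SingPt (Q.map (Subgroup.centralizer ({z} : Set G)).subtype) z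
  cardQ : Nat.card Q = 2 ^ 13
  φ_mul : ∀ a ∈ Q, ∀ b ∈ Q, φ (a * b) = φ a + φ b
  φ_zero : ∀ a ∈ Q, φ a = 0 ↔ (a : G) = 1 ∨ (a : G) = z
  φ_surj : ∀ x, ∃ a ∈ Q, φ a = x
  φ_iso : ∀ a ∈ Q, hermForm 6 F 2 (φ a) (φ a) = 0 ↔ a * a = 1
  ρ_range : ρ.range = sub i
  ρ_ker : ∀ m : M, ρ m = 1 → (m : Subgroup.centralizer ({z} : Set G)) ∈ Q
  ρ_act : ∀ (m : M), ∀ a ∈ Q,
    φ ((m : Subgroup.centralizer ({z} : Set G)) * a * (m : Subgroup.centralizer ({z} : Set G))⁻¹) =
      mat (ρ m) *ᵥ φ a

theorem zmod_two_eq {a b : ZMod 2} (h : a = 0 ↔ b = 0) : a = b := by revert a b; decide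

theorem card_psu43 (F : Type) [Setup F] (L : Type) [Setup9 L] : Nat.card (Cfsg.PSU 4 L 3) = 3265920 := by
  obtain ⟨φ⟩ := sub_mod_center_iso (F := F) (L := L) 0
  rw [← Nat.card_congr φ.toEquiv]
  have := ((Subgroup.center (SU6 F)).subgroupOf (sub (F := F) 0)).card_eq_card_quotient_mul_card_subgroup
  rw [card_sub, Nat.card_congr (Subgroup.subgroupOfEquivOfLe (center_le_sub 0)).toEquiv, card_center] at this
  omega

theorem quot_comm_false {S : Type*} [Group S] [Finite S] (hs : IsSimpleGroup S) (hc : Nat.card S = 3265920)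
    (hperf : commutator S = ⊤) (K : Subgroup S) [K.Normal] (hK : K.index ≤ 3) : K = ⊤ := by
  rcases hs.eq_bot_or_eq_top_of_normal K ‹_› with h | h
  · rw [h, Subgroup.index_bot, hc] at hK
    omega
  · exact h

/-- A normalised element of order three is centralised by a group without a subgroup of index two. -/
theorem comm_of_norm {M R : Type*} [Group M] [Monoid R] (a : M →* R) (T : R) (T3 : T * (T * T) = 1) (Tne : T ≠ 1)
    (conjT : ∀ m, a m * T = T * a m ∨ a m * T = T * T * a m)
    (hfull : ∀ χ : M →* Multiplicative (ZMod 2), (∀ m, a m = 1 ∨ a m = T ∨ a m = T * T → χ m = 1) → χ = 1) :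
    ∀ m, a m * T = T * a m := by
  classical
  have excl : ∀ m, a m * T = T * a m → a m * T ≠ T * T * a m := by
    intro m h1 h2
    refine Tne ?_
    have h3 := congrArg (fun t => t * a m⁻¹) (h1.symm.trans h2)
    simp only [mul_assoc, ← map_mul, mul_inv_cancel, map_one, mul_one] at h3
    calc T = T * (T * (T * T)) := by rw [T3, mul_one]
      _ = (T * T) * (T * T) := by simp only [mul_assoc]
      _ = T * (T * T) := by rw [← h3]
      _ = 1 := T3
  have key : ∀ m, a m * T = T * T * a m → a m * (T * T) = T * a m := by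
    intro m h
    rw [← mul_assoc, h, mul_assoc, h]
    calc T * T * (T * T * a m) = T * (T * (T * T)) * a m := by simp only [mul_assoc]
      _ = T * a m := by rw [T3, mul_one]
  let χ : M →* Multiplicative (ZMod 2) :=
    MonoidHom.mk' (fun m => if a m * T = T * a m then 1 else Multiplicative.ofAdd 1) fun m n => by
      rcases conjT m with hm | hm <;> rcases conjT n with hn | hn
      · rw [if_pos hm, if_pos hn, if_pos (by rw [map_mul, mul_assoc, hn, ← mul_assoc, hm, mul_assoc]), one_mul]
      · rw [if_pos hm, if_neg (fun h => excl n h hn), if_neg ?_, one_mul]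
        intro h
        refine excl (m * n) h ?_
        rw [map_mul, mul_assoc, hn, ← mul_assoc, ← mul_assoc, hm, mul_assoc T (a m), hm]
        simp only [mul_assoc]
      · rw [if_neg (fun h => excl m h hm), if_pos hn, if_neg ?_, mul_one]
        intro h
        refine excl (m * n) h ?_
        rw [map_mul, mul_assoc, hn, ← mul_assoc, hm, mul_assoc]
      · rw [if_neg (fun h => excl m h hm), if_neg (fun h => excl n h hn), if_pos ?_]
        · rfl
        rw [map_mul, mul_assoc, hn, ← mul_assoc, key m hm, mul_assoc]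
  intro m
  by_contra hne
  have h1 := hfull χ fun n hn => by
    show (if a n * T = T * a n then _ else _) = _
    rw [if_pos]
    rcases hn with h | h | h <;> rw [h]
    · rw [one_mul, mul_one]
    · exact mul_assoc _ _ _
  have : (if a m * T = T * a m then (1 : Multiplicative (ZMod 2)) else Multiplicative.ofAdd 1) = 1 :=
    DFunLike.congr_fun h1 m
  rw [if_neg hne] at this
  exact absurd this (by decide)

/-- A perfect central extension of degree three inside the unitary group is one of the three subgroups. -/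
theorem exists_sub {F : Type} [Setup F] {L : Type} [Setup9 L] {M : Type*} [Group M] [Finite M]
    (gu : M →* GU 6 F 2) (hidx : gu.ker.index = 9797760)
    (hdet : ∀ m, ((gu m).1 : Matrix (Fin 6) (Fin 6) F).det = 1)
    (π : M →* Cfsg.PSU 4 L 3) (hπs : Function.Surjective π) (hle : gu.ker ≤ π.ker)
    (hcen : ∀ n ∈ π.ker, ∀ m, gu n * gu m = gu m * gu n) :
    ∃ (g : SU6 F) (i : Fin 3) (ρ : M →* SU6 F), ρ.range = sub i ∧ ρ.ker = gu.ker ∧
      ∀ m x, mat (ρ m) *ᵥ (mat g *ᵥ x) = mat g *ᵥ (((gu m).1 : Matrix (Fin 6) (Fin 6) F) *ᵥ x) := by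
  let ρ0 : M →* SU6 F := MonoidHom.mk' (fun m => ⟨⟨(gu m).1, hdet m⟩,
      H3.mem_SU_iff.2 fun u v => H3.GU_preserves (gu m) u v⟩) fun a b => ext_mat (by
    show ((gu (a * b)).1 : Matrix (Fin 6) (Fin 6) F) = _
    rw [map_mul]; rfl)
  have hinj : ∀ a b, gu a = gu b → ρ0 a = ρ0 b := fun a b h =>
    ext_mat (show ((gu a).1 : Matrix (Fin 6) (Fin 6) F) = (gu b).1 by rw [h])
  have hρ0ker : ρ0.ker = gu.ker := by
    ext m
    simp only [MonoidHom.mem_ker]
    exact ⟨fun h => Subtype.ext (Units.ext (congrArg mat h)), fun h => (hinj m 1 (by rw [h, map_one])).trans (map_one _)⟩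
  let K := ρ0.range
  have hKc : Nat.card K = 9797760 := by rw [← Subgroup.index_ker, hρ0ker, hidx]
  let ψ : K →* Cfsg.PSU 4 L 3 := ρ0.rangeRestrict.liftOfSurjective ρ0.rangeRestrict_surjective
    ⟨π, by rw [MonoidHom.ker_rangeRestrict, hρ0ker]; exact hle⟩
  have hψ : ∀ m, ψ (ρ0.rangeRestrict m) = π m := fun m =>
    MonoidHom.liftOfRightInverse_comp_apply _ _ _ _ _
  have hψs : Function.Surjective ψ := fun y => by
    obtain ⟨m, rfl⟩ := hπs y
    exact ⟨_, hψ m⟩
  have hψk : ψ.ker = Subgroup.center K := by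
    refine le_antisymm (fun x hx => ?_) fun x hx => ?_
    · obtain ⟨m, rfl⟩ := ρ0.rangeRestrict_surjective x
      rw [MonoidHom.mem_ker, hψ, ← MonoidHom.mem_ker] at hx
      refine Subgroup.mem_center_iff.2 fun y => ?_
      obtain ⟨m', rfl⟩ := ρ0.rangeRestrict_surjective y
      refine Subtype.ext ?_
      show ρ0 m' * ρ0 m = ρ0 m * ρ0 m'
      rw [← map_mul, ← map_mul]
      exact hinj _ _ (by rw [map_mul, map_mul, hcen m hx m'])
    · by_contra hne
      have hn : ((Subgroup.center K).map ψ).Normal := (inferInstance : (Subgroup.center K).Normal).map ψ hψs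
      have hsP : IsSimpleGroup (Cfsg.PSU 4 L 3) :=
        H3.isSimpleGroup_PSU (n := 4) (Setup9.hL (L := L)) (by norm_num) (by norm_num)
      rcases hsP.eq_bot_or_eq_top_of_normal _ hn with h | h
      · exact hne ((Subgroup.map_eq_bot_iff _).1 h hx)
      · have hcomm : ∀ a b : Cfsg.PSU 4 L 3, a * b = b * a := fun a b => by
          obtain ⟨a', ha', rfl⟩ := (show a ∈ (Subgroup.center K).map ψ from h ▸ Subgroup.mem_top a)
          obtain ⟨b', rfl⟩ := hψs b
          rw [← map_mul, ← map_mul, Subgroup.mem_center_iff.1 ha' b']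
        letI : CommGroup (Cfsg.PSU 4 L 3) := { (inferInstance : Group (Cfsg.PSU 4 L 3)) with mul_comm := hcomm }
        have : Nat.Prime (Nat.card (Cfsg.PSU 4 L 3)) := IsSimpleGroup.prime_card
        rw [card_psu43 F L] at this
        norm_num at this
  have hZ3 : Nat.card (Subgroup.center K) = 3 := by
    have h := ψ.ker.card_mul_index
    rw [Subgroup.index_ker, MonoidHom.range_eq_top.2 hψs, Subgroup.card_top, card_psu43 F L, hKc, hψk] at h
    omega
  obtain ⟨g, i, hgi⟩ := exists_conj_eq_sub (L := L) K hZ3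
    ⟨(QuotientGroup.quotientMulEquivOfEq hψk.symm).trans (QuotientGroup.quotientKerEquivOfSurjective ψ hψs)⟩
  refine ⟨g, i, (MulAut.conj g).toMonoidHom.comp ρ0, ?_, ?_, fun m x => ?_⟩
  · rw [← hgi]
    exact MonoidHom.range_comp _ _
  · rw [← hρ0ker]
    ext m
    simp [MonoidHom.mem_ker]
  · show mat (g * ρ0 m * g⁻¹) *ᵥ _ = _
    rw [mat_mul, mat_mul, ← Matrix.mulVec_mulVec, ← Matrix.mulVec_mulVec,
      Matrix.mulVec_mulVec _ (mat g⁻¹) (mat g), ← mat_mul, inv_mul_cancel, mat_one, Matrix.one_mulVec]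
    rfl

theorem index_three_cases {N : Type*} [Group N] [Finite N] (K : Subgroup N) [K.Normal] (h3 : K.index = 3) {x : N}
    (hx : x ∉ K) (n : N) : ∃ k < 3, (x ^ k)⁻¹ * n ∈ K := by
  classical
  have hc : Nat.card (N ⧸ K) = 3 := h3
  have hord : orderOf (QuotientGroup.mk' K x) = 3 := by
    have hd : orderOf (QuotientGroup.mk' K x) ∣ Nat.card (N ⧸ K) := orderOf_dvd_natCard _
    rw [hc] at hd
    refine ((Nat.dvd_prime Nat.prime_three).1 hd).resolve_left fun h1 => hx ?_
    exact (QuotientGroup.eq_one_iff x).1 (orderOf_eq_one_iff.1 h1)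
  have htop : Subgroup.zpowers (QuotientGroup.mk' K x) = ⊤ :=
    Subgroup.eq_top_of_card_eq _ (by rw [Nat.card_zpowers, hord, hc])
  have hm : QuotientGroup.mk' K n ∈ Subgroup.zpowers (QuotientGroup.mk' K x) := htop ▸ Subgroup.mem_top _
  obtain ⟨j, hj⟩ := Submonoid.mem_powers_iff _ _ |>.1 (mem_powers_iff_mem_zpowers.2 hm)
  rw [← pow_mod_orderOf, hord, ← map_pow] at hj
  exact ⟨j % 3, Nat.mod_lt _ (by norm_num), QuotientGroup.eq.1 hj⟩

variable [Finite G] {z : G} {Q : Subgroup (Subgroup.centralizer ({z} : Set G))} [Q.Normal]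

theorem exists_model (F : Type) [Setup F] (hF : Cfsg.IsOfLargeFischerTypeAt z Q) : Nonempty (Model F z Q) := by
  classical
  obtain ⟨⟨hz, hFQ, hQ, hcard, -⟩, N, M, hNn, hMn, hQN, hNM, hcN, ⟨L0, _, _, hL0, ⟨eM⟩⟩, hM2⟩ := hF
  obtain ⟨im, him⟩ := exists_im hL0
  letI : Setup9 L0 :=
    { (inferInstance : Field L0) with im := im, him := him, fin := inferInstance, card := hL0 }
  set E := Q.map (Subgroup.centralizer ({z} : Set G)).subtype with hE
  have hsing : H18.SingPt E z :=
    (H18.singPt_of_fstar hz (by rw [hFQ]) (H18.extraspecial_of_equiv'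
      (Q.equivMapOfInjective _ (Subgroup.subtype_injective _)) hQ)).1
  have hQM : Q ≤ M := hQN.trans hNM
  -- the quotient
  have hScard : Nat.card (M ⧸ N.subgroupOf M) = 3265920 := by
    rw [Nat.card_congr eM.toEquiv, card_psu43 F L0]
  have hSsimp : IsSimpleGroup (M ⧸ N.subgroupOf M) := by
    have hP := H3.isSimpleGroup_PSU (n := 4) (Setup9.hL (L := L0)) (by norm_num) (by norm_num)
    haveI : Nontrivial (M ⧸ N.subgroupOf M) := eM.toEquiv.nontrivial
    exact IsSimpleGroup.isSimpleGroup_of_surjective eM.symm.toMonoidHom eM.symm.surjective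
  have hperf : commutator (M ⧸ N.subgroupOf M) = ⊤ := by
    rcases hSsimp.eq_bot_or_eq_top_of_normal _ (inferInstance : (commutator (M ⧸ N.subgroupOf M)).Normal) with h | h
    · exfalso
      have hcomm : ∀ a b : M ⧸ N.subgroupOf M, a * b = b * a := fun a b => by
        have hm : ⁅a, b⁆ ∈ commutator (M ⧸ N.subgroupOf M) :=
          Subgroup.commutator_mem_commutator (Subgroup.mem_top a) (Subgroup.mem_top b)
        rw [h, Subgroup.mem_bot] at hm
        exact commutatorElement_eq_one_iff_mul_comm.1 hm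
      letI : CommGroup (M ⧸ N.subgroupOf M) := { (inferInstance : Group (M ⧸ N.subgroupOf M)) with mul_comm := hcomm }
      have : Nat.Prime (Nat.card (M ⧸ N.subgroupOf M)) := IsSimpleGroup.prime_card
      rw [hScard] at this
      norm_num at this
    · exact h
  have hMfull : ∀ {A : Type} [CommGroup A] [Finite A], Nat.card A ≤ 3 → ∀ χ : M →* A,
      (∀ m : M, (m : (Subgroup.centralizer ({z} : Set G))) ∈ N → χ m = 1) → χ = 1 := by
    intro A _ _ hA χ hχ
    have hN : N.subgroupOf M ≤ χ.ker := fun m hm => hχ m hm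
    have : (χ.ker.map (QuotientGroup.mk' (N.subgroupOf M))).Normal :=
      (MonoidHom.normal_ker χ).map _ (QuotientGroup.mk'_surjective _)
    have hi : (χ.ker.map (QuotientGroup.mk' (N.subgroupOf M))).index ≤ 3 := by
      rw [Subgroup.index_map_eq _ (QuotientGroup.mk'_surjective _) (by rwa [QuotientGroup.ker_mk']),
        Subgroup.index_ker]
      exact (Nat.card_le_card_of_injective _ Subtype.val_injective).trans hA
    have h := quot_comm_false hSsimp hScard hperf _ hi
    refine MonoidHom.ext fun m => ?_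
    obtain ⟨k, hk, e⟩ := (show QuotientGroup.mk' (N.subgroupOf M) m ∈ _ from h ▸ Subgroup.mem_top _)
    have h1 : k⁻¹ * m ∈ χ.ker := hN (QuotientGroup.eq.1 e)
    have := mul_mem hk h1
    rwa [mul_inv_cancel_left, MonoidHom.mem_ker] at this
  -- the orthogonal space
  obtain ⟨inst, qf, hnd, hfin, hq⟩ := H18.exists_quadSpace hQ (n := 6) (by rw [hcard])
  letI := inst
  let V := Additive (Abelianization Q)
  have : Finite V := Finite.of_surjective (fun q : Q => Additive.ofMul (Abelianization.of q))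
    (fun v => QuotientGroup.mk_surjective (Additive.toMul v))
  let vq : Q → V := fun q => Additive.ofMul (Abelianization.of q)
  have hvq_surj : Function.Surjective vq := fun v => QuotientGroup.mk_surjective (Additive.toMul v)
  have hvq_mul : ∀ a b, vq (a * b) = vq a + vq b := fun a b => by simp [vq, map_mul]
  have hvq_zero : ∀ a : Q, vq a = 0 ↔ ((a : (Subgroup.centralizer ({z} : Set G))) : G) = 1 ∨ ((a : (Subgroup.centralizer ({z} : Set G))) : G) = z := by
    intro a
    show Abelianization.of a = 1 ↔ _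
    rw [← MonoidHom.mem_ker, Abelianization.ker_of, hQ.1.2.2]
    constructor
    · intro h
      refine hsing.cent _ fun w hw => ?_
      obtain ⟨c, hc, rfl⟩ := hw
      exact congrArg (fun t : Q => ((t : (Subgroup.centralizer ({z} : Set G))) : G)) (Subgroup.mem_center_iff.1 h ⟨c, hc⟩)
    · intro h
      refine Subgroup.mem_center_iff.2 fun w => Subtype.ext (Subtype.ext ?_)
      show ((w : (Subgroup.centralizer ({z} : Set G))) : G) * ((a : (Subgroup.centralizer ({z} : Set G))) : G) = ((a : (Subgroup.centralizer ({z} : Set G))) : G) * ((w : (Subgroup.centralizer ({z} : Set G))) : G)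
      rcases h with e | e <;> rw [e]
      · simp
      · exact Subgroup.mem_centralizer_singleton_iff.1 (w : (Subgroup.centralizer ({z} : Set G))).2
  have h2V : ∀ v : V, v + v = 0 := fun v => by
    rw [← two_smul (ZMod 2) v, show (2 : ZMod 2) = 0 from rfl, zero_smul]
  have hcardV : Nat.card V = 4096 := by
    rw [Module.natCard_eq_pow_finrank (K := ZMod 2), Nat.card_zmod, hfin]; norm_num
  let conjQ : (Subgroup.centralizer ({z} : Set G)) →* MulAut Q := MulAut.conjNormal
  let α : (Subgroup.centralizer ({z} : Set G)) →* AddMonoid.End V :=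
    { toFun := fun c => MonoidHom.toAdditive (Abelianization.map (conjQ c).toMonoidHom)
      map_one' := AddMonoidHom.ext fun v => by
        obtain ⟨q, rfl⟩ := hvq_surj v
        show Additive.ofMul (Abelianization.of ((conjQ 1) q)) = vq q
        rw [map_one]; rfl
      map_mul' := fun a b => AddMonoidHom.ext fun v => by
        obtain ⟨q, rfl⟩ := hvq_surj v
        show Additive.ofMul (Abelianization.of ((conjQ (a * b)) q)) = _
        rw [map_mul]; rfl }
  have hα : ∀ (c : (Subgroup.centralizer ({z} : Set G))) (q : Q), α c (vq q) = vq (conjQ c q) := fun _ _ => rfl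
  have αmul : ∀ (a b : (Subgroup.centralizer ({z} : Set G))) (v : V), α (a * b) v = α a (α b v) := fun a b v => by rw [map_mul]; rfl
  have αone : ∀ v : V, α 1 v = v := fun v => by rw [map_one]; rfl
  have αq : ∀ (c : (Subgroup.centralizer ({z} : Set G))) (v : V), qf (α c v) = qf v := by
    intro c v
    obtain ⟨q, rfl⟩ := hvq_surj v
    rw [hα]
    simp only [vq, hq]
    refine zmod_two_eq ?_
    rw [H18.sqForm_eq_zero_iff, H18.sqForm_eq_zero_iff, ← map_mul]
    exact map_eq_one_iff _ (conjQ c).injective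
  have αQ : ∀ c : (Subgroup.centralizer ({z} : Set G)), c ∈ Q → α c = 1 := by
    intro c hc
    refine AddMonoidHom.ext fun v => ?_
    obtain ⟨q, rfl⟩ := hvq_surj v
    have e : conjQ c q = (⟨c, hc⟩ : Q) * q * (⟨c, hc⟩ : Q)⁻¹ := Subtype.ext rfl
    show α c (vq q) = vq q
    rw [hα, e, hvq_mul, hvq_mul, add_comm (vq _) (vq q), add_assoc, ← hvq_mul, mul_inv_cancel,
      (hvq_zero 1).2 (Or.inl rfl), add_zero]
  have αker : ∀ c : (Subgroup.centralizer ({z} : Set G)), (∀ v, α c v = v) → c ∈ Q := by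
    intro c hc
    have hcz : (c : G) * z = z * c := Subgroup.mem_centralizer_singleton_iff.1 c.2
    obtain ⟨c', hc', e⟩ := hsing.mem_of_disp hcz fun p hp => by
      obtain ⟨q, hq, rfl⟩ := hp
      have h1 := hc (vq ⟨q, hq⟩)
      rw [hα] at h1
      have h3 : vq (⟨q, hq⟩⁻¹ * conjQ c ⟨q, hq⟩) = 0 := by
        rw [hvq_mul, h1, ← hvq_mul, inv_mul_cancel]
        exact (hvq_zero 1).2 (Or.inl rfl)
      exact (H18.mem_zpowers_iff_pair hsing.xx _).2 ((hvq_zero _).1 h3)
    rwa [show c = c' from Subtype.ext e.symm]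
  -- the element of order three
  have hN3 : (Q.subgroupOf N).index = 3 := by
    have h := (Q.subgroupOf N).card_mul_index
    rw [Nat.card_congr (Subgroup.subgroupOfEquivOfLe hQN).toEquiv, hcN, mul_comm 3] at h
    exact Nat.eq_of_mul_eq_mul_left Nat.card_pos h
  have hQNn : (Q.subgroupOf N).Normal := ‹Q.Normal›.comap N.subtype
  obtain ⟨x0, hx0⟩ : ∃ x : N, x ∉ Q.subgroupOf N := by
    by_contra h
    push Not at h
    rw [(Subgroup.eq_top_iff' _).2 h, Subgroup.index_top] at hN3
    omega
  have hNcases : ∀ n : (Subgroup.centralizer ({z} : Set G)), n ∈ N → ∃ k < 3, ((x0 : (Subgroup.centralizer ({z} : Set G))) ^ k)⁻¹ * n ∈ Q := by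
    intro n hn
    obtain ⟨k, hk, h⟩ := index_three_cases (Q.subgroupOf N) hN3 hx0 ⟨n, hn⟩
    exact ⟨k, hk, h⟩
  have αcube : α (x0 : (Subgroup.centralizer ({z} : Set G))) * (α (x0 : (Subgroup.centralizer ({z} : Set G))) * α (x0 : (Subgroup.centralizer ({z} : Set G)))) = 1 := by
    rw [← map_mul, ← map_mul]
    refine αQ _ ?_
    have h := (Q.subgroupOf N).pow_index_mem x0
    rw [hN3, pow_succ', pow_two] at h
    exact h
  set T : AddMonoid.End V := α (x0 : (Subgroup.centralizer ({z} : Set G))) with hTdef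
  have T3 : ∀ v, T (T (T v)) = v := fun v => DFunLike.congr_fun αcube v
  have αN : ∀ n : (Subgroup.centralizer ({z} : Set G)), n ∈ N → α n = 1 ∨ α n = T ∨ α n = T * T := by
    intro n hn
    obtain ⟨k, hk, hkQ⟩ := hNcases n hn
    have e : α n = T ^ k := by
      rw [show n = (x0 : (Subgroup.centralizer ({z} : Set G))) ^ k * (((x0 : (Subgroup.centralizer ({z} : Set G))) ^ k)⁻¹ * n) by group, map_mul, αQ _ hkQ, mul_one, map_pow]
    interval_cases k
    · exact Or.inl (by rw [e, pow_zero])
    · exact Or.inr (Or.inl (by rw [e, pow_one]))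
    · exact Or.inr (Or.inr (by rw [e, pow_two]))
  have Tne : T ≠ 1 := fun h => hx0 (αker _ fun v => DFunLike.congr_fun h v)
  have conjT : ∀ c : (Subgroup.centralizer ({z} : Set G)), α c * T = T * α c ∨ α c * T = T * T * α c := by
    intro c
    have hn : c * x0 * c⁻¹ ∈ N := hNn.conj_mem _ x0.2 c
    have e : α c * T = α (c * x0 * c⁻¹) * α c := by rw [hTdef, ← map_mul, ← map_mul, inv_mul_cancel_right]
    rcases αN _ hn with h | h | h
    · exfalso
      refine hx0 ?_
      have := ‹Q.Normal›.conj_mem _ (αker _ fun v => DFunLike.congr_fun h v) c⁻¹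
      exact Subgroup.mem_subgroupOf.2 (by simpa [mul_assoc] using this)
    · exact Or.inl (e.trans (by rw [h]))
    · exact Or.inr (e.trans (by rw [h]))
  let αM : M →* AddMonoid.End V := α.comp M.subtype
  have hMT := comm_of_norm αM T αcube Tne (fun m => conjT m) (fun χ hχ =>
    hMfull (A := Multiplicative (ZMod 2))
      (by rw [Nat.card_congr Multiplicative.toAdd, Nat.card_zmod]; norm_num) χ fun n hn => hχ n (αN _ hn))
  have hQ' : (Q.subgroupOf M).index = 9797760 := by
    have h1 := (N.subgroupOf M).card_eq_card_quotient_mul_card_subgroup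
    rw [hScard, Nat.card_congr (Subgroup.subgroupOfEquivOfLe hNM).toEquiv, hcN] at h1
    have h3 := (Q.subgroupOf M).card_mul_index
    rw [Nat.card_congr (Subgroup.subgroupOfEquivOfLe hQM).toEquiv, h1, hcard] at h3
    omega
  have hUfix : ∀ U : AddSubgroup V, Nat.card U < 4096 → (∀ u ∈ U, T u = u) → (∀ m, ∀ u ∈ U, αM m u ∈ U) →
      ∀ m, ∀ u ∈ U, αM m u = u := by
    intro U hU4096 hTU hst
    let g : M →* AddMonoid.End U :=
      { toFun := fun m => AddMonoidHom.codRestrict (AddMonoidHom.comp (αM m) U.subtype) U fun u => hst m u.1 u.2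
        map_one' := AddMonoidHom.ext fun u => Subtype.ext (αone _)
        map_mul' := fun a b => AddMonoidHom.ext fun u => Subtype.ext (αmul _ _ _) }
    have hgN : N.subgroupOf M ≤ g.toHomUnits.ker := by
      intro n hn
      refine Units.ext (AddMonoidHom.ext fun u => Subtype.ext ?_)
      show α (n : (Subgroup.centralizer ({z} : Set G))) u.1 = u.1
      rcases αN (n : (Subgroup.centralizer ({z} : Set G))) hn with h | h | h <;> rw [h]
      · rfl
      · exact hTU _ u.2
      · show T (T u.1) = u.1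
        rw [hTU _ u.2, hTU _ u.2]
    let gl : M ⧸ N.subgroupOf M →* AddMonoid.End U :=
      (Units.coeHom _).comp (QuotientGroup.lift _ g.toHomUnits hgN)
    have h1 := psu_rep_trivial (L := L0) F eM (fun u => Subtype.ext (h2V _)) hU4096 gl
    intro m u hu
    exact congrArg Subtype.val (DFunLike.congr_fun (DFunLike.congr_fun h1
      (QuotientGroup.mk' (N.subgroupOf M) m)) ⟨u, hu⟩)
  obtain ⟨κ, gu, gu_apply, hκq, hkerQ, hA⟩ := exists_frame F qf hnd hcardV h2V αM (fun m v => αq m v)
    ⟨x0, hNM x0.2⟩ T rfl T3 Tne (fun m v => DFunLike.congr_fun (hMT m) v) hUfix (Q.subgroupOf M)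
    (fun m => ⟨fun h => αker _ h, fun h v => DFunLike.congr_fun (αQ (m : (Subgroup.centralizer ({z} : Set G))) h) v⟩) hQ'
  let δ : M →* Fˣ := Matrix.GeneralLinearGroup.det.comp ((GU 6 F 2).subtype.comp gu)
  have hFu : Nat.card Fˣ ≤ 3 := by
    rw [Nat.card_units, Nat.card_eq_fintype_card, Setup.card]
  have hδx : δ ⟨x0, hNM x0.2⟩ = 1 := by
    refine Units.ext ?_
    show ((gu ⟨x0, hNM x0.2⟩).1 : Matrix (Fin 6) (Fin 6) F).det = 1
    rw [hA, Matrix.det_smul, Matrix.det_one, mul_one, Fintype.card_fin]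
    calc (om : F) ^ 6 = (om * om * om) * (om * om * om) := by ring
      _ = 1 := by rw [cube_eq_one om_ne_zero, one_mul]
  have hδ1 : δ = 1 := hMfull hFu δ fun n hn => by
    obtain ⟨k, -, hk⟩ := hNcases n hn
    have e : n = (⟨x0, hNM x0.2⟩ : M) ^ k * ((⟨x0, hNM x0.2⟩ : M) ^ k)⁻¹ * n := by group
    have hq : gu (((⟨x0, hNM x0.2⟩ : M) ^ k)⁻¹ * n) = 1 := by
      rw [← MonoidHom.mem_ker, hkerQ]; exact hk
    have hq' : δ (((⟨x0, hNM x0.2⟩ : M) ^ k)⁻¹ * n) = 1 := by
      show (Matrix.GeneralLinearGroup.det.comp (GU 6 F 2).subtype) (gu _) = 1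
      rw [hq, map_one]
    rw [e, mul_assoc, map_mul, map_pow, hδx, one_pow, one_mul, hq']
  let π : M →* Cfsg.PSU 4 L0 3 := eM.toMonoidHom.comp (QuotientGroup.mk' (N.subgroupOf M))
  have hπk : π.ker = N.subgroupOf M := by
    ext m
    rw [MonoidHom.mem_ker]
    show eM _ = 1 ↔ _
    rw [map_eq_one_iff _ eM.injective]
    exact QuotientGroup.eq_one_iff m
  obtain ⟨g, i, ρ, hρr, hρk, hρa⟩ := exists_sub (L := L0) gu (by rw [hkerQ]; exact hQ')
    (fun m => congrArg Units.val (DFunLike.congr_fun hδ1 m)) π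
    (eM.surjective.comp (QuotientGroup.mk'_surjective _)) (by rw [hkerQ, hπk]; exact fun m hm => hQN hm) (by
      rw [hπk]
      intro n hn m
      rw [← map_mul, ← map_mul]
      refine gu.eq_iff.2 ?_
      rw [hkerQ]
      refine αker _ fun v => ?_
      have hcm : αM n * αM m = αM m * αM n := by
        rcases αN _ hn with h | h | h <;> rw [show αM n = _ from h]
        · rw [one_mul, mul_one]
        · exact (hMT m).symm
        · rw [← mul_assoc (αM m), hMT m, mul_assoc, mul_assoc, hMT m]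
      have e2 : αM ((m * n)⁻¹ * (n * m)) = 1 := by
        rw [map_mul, map_mul αM n, hcm, ← map_mul αM m, ← map_mul, inv_mul_cancel, map_one]
      exact DFunLike.congr_fun e2 v)
  let φ : (Subgroup.centralizer ({z} : Set G)) → (Fin 6 → F) := fun c =>
    if h : c ∈ Q then mat g *ᵥ κ (vq ⟨c, h⟩) else 0
  have ginj : ∀ x : Fin 6 → F, mat g⁻¹ *ᵥ (mat g *ᵥ x) = x := fun x => by
    rw [Matrix.mulVec_mulVec, ← mat_mul, inv_mul_cancel, mat_one, Matrix.one_mulVec]
  refine ⟨⟨i, M, hMn, hM2, hQM, φ, ρ, hsing, by rw [hcard], ?_, ?_, ?_, ?_, hρr, ?_, ?_⟩⟩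
  · intro a ha b hb
    simp only [φ, dif_pos ha, dif_pos hb, dif_pos (mul_mem ha hb), ← Matrix.mulVec_add, ← map_add]
    congr 2
  · intro a ha
    simp only [φ, dif_pos ha]
    rw [← hvq_zero ⟨a, ha⟩]
    constructor
    · intro h
      have h1 := congrArg (fun x => mat g⁻¹ *ᵥ x) h
      simp only [ginj, Matrix.mulVec_zero] at h1
      exact κ.map_eq_zero_iff.1 h1
    · intro h
      rw [h, map_zero, Matrix.mulVec_zero]
  · intro x
    obtain ⟨⟨a, ha⟩, hqa⟩ := hvq_surj (κ.symm (mat g⁻¹ *ᵥ x))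
    refine ⟨a, ha, ?_⟩
    simp only [φ, dif_pos ha]
    rw [hqa, AddEquiv.apply_symm_apply, Matrix.mulVec_mulVec, ← mat_mul,
      mul_inv_cancel, mat_one, Matrix.one_mulVec]
  · intro a ha
    simp only [φ, dif_pos ha]
    rw [herm_mulVec, hκq]
    show qf (Additive.ofMul (Abelianization.of (⟨a, ha⟩ : Q))) = 0 ↔ _
    rw [hq, H18.sqForm_eq_zero_iff]
    exact ⟨fun h => congrArg Subtype.val h, fun h => Subtype.ext h⟩
  · intro m hm
    have h1 : m ∈ ρ.ker := hm
    rw [hρk, hkerQ] at h1
    exact h1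
  · intro m a ha
    have hma := ‹Q.Normal›.conj_mem a ha m
    simp only [φ, dif_pos ha, dif_pos hma]
    rw [hρa, gu_apply]
    congr 2

end Cfsg.Agent.H84.LF
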