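import Cfsg.Agent.H8.U62.Check
import Cfsg.Agent.H84.LF.Data

/-!
# Checks on orbits of vectors
-/

set_option autoImplicit false

namespace Cfsg.Agent.H84.LF

open Cfsg.Agent.H8.U62

/-- Extend a mask along a tree; a step is taken only from a point already present. -/
def grow (gens : List ℕ) : List ℕ → ℕ → ℕ
  | [], m => m
  | s :: t, m => force (s / 4) fun p =>
      force (bif m.testBit p then Nat.lor m (1 <<< mvC (gens.getD (s % 4) oneC) p) else m) fun m' =>
        grow gens t m'

/-- A word in the generators. -/
def wordS (gens : List ℕ) : List ℕ → ℕ
  | [] => oneC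
  | a :: l => force (wordS gens l) fun B => mmC (gens.getD a oneC) B

/-- The short orbit. -/
def maskA (i : ℕ) : ℕ := grow (subGenC i) (treeA.getD i []) (1 <<< 5)

/-- The long orbit. -/
def maskB (i : ℕ) : ℕ := grow (subGenC i) (treeB.getD i []) (1 <<< 85)

/-- Elements fixing the first representative. -/
def stGenC (i : ℕ) : List ℕ := (stW.getD i []).map (wordS (subGenC i))

/-- The orbit of a neighbour. -/
def maskO (i : ℕ) : ℕ := grow (stGenC i) (treeO.getD i []) (1 <<< 80)

/-- Not a multiple of the first representative. -/
def notMult (v : ℕ) : Bool := !(Nat.beq v 5 || Nat.beq v (sW 5) || Nat.beq v (sW (sW 5)))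

/-- A neighbour of the first representative in its orbit. -/
def nbr (mA v : ℕ) : Bool := mA.testBit v && orthC 5 v && notMult v

/-- All facts about the orbits of the subgroup with number `i`. -/
def orbOK (i : ℕ) : Bool :=
  force (maskA i) fun mA => force (maskB i) fun mB => force (maskO i) fun mO =>
    let gens := subGenC i
    Nat.beq gens.length 4 &&
    ((List.range 4096).all fun v => force v fun v =>
      (bif mA.testBit v then gens.all fun G => mA.testBit (mvC G v) else true) &&
      (bif mB.testBit v then gens.all fun G => mB.testBit (mvC G v) else true) &&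
      (bif Nat.beq v 0 then true else bif orthC v v then (mA.testBit v || mB.testBit v) else true) &&
      (bif nbr mA v then mO.testBit v else true)) &&
    Nat.beq ((List.range 4096).filter fun v => mA.testBit v).length 378 &&
    Nat.beq ((List.range 4096).filter fun v => mB.testBit v).length 1701 &&
    Nat.beq ((List.range 4096).filter fun v => nbr mA v).length 135 &&
    ((stGenC i).all fun G => Nat.beq (mvC G 5) 5) &&
    nbr mA 80 && nbr mA 144 && nbr mA 1280 && nbr mA 2304

theorem orb_ok0 : orbOK 0 = true := by decide +kernel

theorem orb_ok1 : orbOK 1 = true := by decide +kernel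

theorem orb_ok2 : orbOK 2 = true := by decide +kernel

end Cfsg.Agent.H84.LF
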