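import Cfsg.Agent.H8.U62.Group
import Cfsg.Agent.H3.Form

/-!
# A hermitian space over a field with four elements from an automorphism of order three
-/

set_option autoImplicit false
set_option linter.unusedSectionVars false

namespace Cfsg.Agent.H84.LF

open Matrix Cfsg.Agent.H8.U62 Cfsg.Agent.H8.U62.Setup

variable {F : Type} [Setup F]

/-- The involutory automorphism. -/
noncomputable def sigmaF (F : Type) [Setup F] : F →+* F where
  toFun x := x * x
  map_one' := one_mul 1
  map_zero' := zero_mul 0
  map_mul' a b := by ring
  map_add' a b := by linear_combination (a * b) * two (F := F)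

theorem fe_mul (a b c d : Bool) : fe (om : F) a b * fe om c d =
    fe om (Bool.xor (a && c) (b && d)) (Bool.xor (Bool.xor (a && d) (b && c)) (b && d)) := by
  have h := hom (F := F)
  have h2 := two (F := F)
  cases a <;> cases b <;> cases c <;> cases d <;> simp [fe, bF] <;> grobner

theorem fe_eq_zero_iff {a b : Bool} : fe (om : F) a b = 0 ↔ a = false ∧ b = false := by
  constructor
  · intro h; exact fe_inj (h.trans (show (0 : F) = fe om false false by simp [fe, bF]))
  · rintro ⟨rfl, rfl⟩; simp [fe, bF]

variable {W : Type*} [AddCommGroup W] (T : W →+ W)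

/-- A bit as a multiple of the identity. -/
def bW (b : Bool) (w : W) : W := bif b then w else 0

/-- The first bit. -/
noncomputable def bitA (x : F) : Bool := (exists_fe x).choose

/-- The second bit. -/
noncomputable def bitB (x : F) : Bool := (exists_fe x).choose_spec.choose

theorem bits_fe (a b : Bool) : bitA (fe (om : F) a b) = a ∧ bitB (fe (om : F) a b) = b :=
  fe_inj (exists_fe (fe (om : F) a b)).choose_spec.choose_spec.symm

/-- The action of a scalar. -/
noncomputable def scal (x : F) (w : W) : W :=
  bW (bitA x) w + bW (bitB x) (T w)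

theorem scal_fe (a b : Bool) (w : W) : scal T (fe (om : F) a b) w = bW a w + bW b (T w) := by
  rw [scal, (bits_fe a b).1, (bits_fe a b).2]

theorem three_z (h2 : ∀ w : W, w + w = 0) (w : W) : (3 : ℤ) • w = w := by
  rw [show (3 : ℤ) = 2 + 1 by norm_num, add_zsmul, one_zsmul, two_zsmul, h2, zero_add]

variable (h2 : ∀ w : W, w + w = 0) (hT : ∀ w, T (T w) = T w + w)
include h2 hT

/-- The module over the field with four elements. -/
@[reducible] noncomputable def fourModule : Module F W :=
  letI : SMul F W := ⟨scal T⟩
  Module.ofMinimalAxioms
    (fun r x y => by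
      obtain ⟨a, b, rfl⟩ := exists_fe r
      show scal T _ (x + y) = scal T _ x + scal T _ y
      simp only [scal_fe, map_add]
      cases a <;> cases b <;> simp [bW] <;> abel)
    (fun r s x => by
      obtain ⟨a, b, rfl⟩ := exists_fe r
      obtain ⟨c, d, rfl⟩ := exists_fe s
      show scal T _ x = scal T _ x + scal T _ x
      rw [← fe_xor _ hom two, scal_fe, scal_fe, scal_fe]
      cases a <;> cases b <;> cases c <;> cases d <;> simp [bW, h2] <;> abel_nf <;> simp [two_zsmul, three_z h2, h2])
    (fun r s x => by
      obtain ⟨a, b, rfl⟩ := exists_fe r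
      obtain ⟨c, d, rfl⟩ := exists_fe s
      show scal T _ x = scal T _ (scal T _ x)
      rw [fe_mul, scal_fe, scal_fe, scal_fe]
      cases a <;> cases b <;> cases c <;> cases d <;> simp [bW, hT, h2] <;> abel_nf <;> simp [two_zsmul, three_z h2, h2])
    (fun x => by
      show scal T (1 : F) x = x
      rw [show (1 : F) = fe om true false by simp [fe, bF], scal_fe]
      simp [bW])

end Cfsg.Agent.H84.LF
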