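import Cfsg.Agent.H84.LF.Orbits
import Cfsg.Agent.H84.LF.Bridge
import Cfsg.Agent.H18.Singular.Final

/-!
# Orbits on the involutions of `Q` in a group of large Fischer type
-/

set_option autoImplicit false
set_option linter.unusedSectionVars false

namespace Cfsg.Agent.H84.LF

open Matrix Cfsg.Agent.H8.U62 Cfsg.Agent.H8.U62.Setup

variable {G : Type*} [Group G] {F : Type} [Setup F] {z : G} {Q : Subgroup (Subgroup.centralizer ({z} : Set G))}

namespace Model

variable (D : Model F z Q)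

theorem coe_comm (c : Subgroup.centralizer ({z} : Set G)) : (c : G) * z = z * c :=
  Subgroup.mem_centralizer_singleton_iff.1 c.2

include D

theorem eq_or_eq_mul {a b : Subgroup.centralizer ({z} : Set G)} (ha : a ∈ Q) (hb : b ∈ Q) (h : D.φ a = D.φ b) :
    (b : G) = a ∨ (b : G) = a * z := by
  have h1 : D.φ (a * (a⁻¹ * b)) = D.φ a + D.φ (a⁻¹ * b) := D.φ_mul a ha _ (mul_mem (inv_mem ha) hb)
  rw [mul_inv_cancel_left, ← h] at h1
  have h2 := (D.φ_zero _ (mul_mem (inv_mem ha) hb)).1 (left_eq_add.1 h1)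
  rw [Subgroup.coe_mul, Subgroup.coe_inv] at h2
  rcases h2 with e | e
  · exact Or.inl (inv_mul_eq_one.1 e).symm
  · exact Or.inr (inv_mul_eq_iff_eq_mul.1 e)

theorem φ_congr [Q.Normal] {a b : Subgroup.centralizer ({z} : Set G)} (ha : a ∈ Q) (hb : b ∈ Q)
    (h : D.φ a = D.φ b) (c : Subgroup.centralizer ({z} : Set G)) : D.φ (c * a * c⁻¹) = D.φ (c * b * c⁻¹) := by
  have hn : Q.Normal := ‹_›
  have hab := mul_mem (inv_mem ha) hb
  have h1 : D.φ (a * (a⁻¹ * b)) = D.φ a + D.φ (a⁻¹ * b) := D.φ_mul a ha _ hab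
  rw [mul_inv_cancel_left, ← h] at h1
  have h0 := (D.φ_zero _ hab).1 (left_eq_add.1 h1)
  have h2 : D.φ (c * (a⁻¹ * b) * c⁻¹) = 0 := by
    refine (D.φ_zero _ (hn.conj_mem _ hab c)).2 ?_
    rcases h0 with e | e
    · left
      rw [Subgroup.coe_mul, Subgroup.coe_mul (Subgroup.centralizer ({z} : Set G)) c, e, Subgroup.coe_inv, mul_one,
        mul_inv_cancel]
    · right
      rw [Subgroup.coe_mul, Subgroup.coe_mul (Subgroup.centralizer ({z} : Set G)) c, e, Subgroup.coe_inv,
        coe_comm c, mul_inv_cancel_right]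
  have h3 := D.φ_mul _ (hn.conj_mem _ ha c) _ (hn.conj_mem _ hab c)
  rw [h2, add_zero] at h3
  rw [← h3]
  congr 1
  group

theorem exists_conjQ {a b : Subgroup.centralizer ({z} : Set G)} (ha : a ∈ Q) (hne : D.φ a ≠ 0)
    (h : (b : G) = a ∨ (b : G) = a * z) : ∃ q ∈ Q, q * a * q⁻¹ = b := by
  rcases h with e | e
  · exact ⟨1, one_mem _, by rw [one_mul, inv_one, mul_one]; exact Subtype.ext e.symm⟩
  · have hs := D.sing
    have hnc : ¬ ∀ w ∈ Q, (w : G) * (a : G) = (a : G) * w := fun hc =>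
      hne ((D.φ_zero a ha).2 (hs.cent _ fun w hw => by obtain ⟨c, hc', rfl⟩ := hw; exact hc c hc'))
    push Not at hnc
    obtain ⟨w, hw, hwa⟩ := hnc
    refine ⟨w, hw, Subtype.ext ?_⟩
    have hc := hs.comm (a := (w : G)) (b := (a : G)) ⟨w, hw, rfl⟩ ⟨a, ha, rfl⟩
    rcases hs.pair hc with e' | e'
    · exact absurd (mul_inv_eq_iff_eq_mul.1 (mul_inv_eq_one.1 e')) hwa
    · show (w : G) * a * (w : G)⁻¹ = b
      rw [mul_inv_eq_iff_eq_mul.1 e', e, hs.comm_x (a : G) ⟨a, ha, rfl⟩]

theorem rho_mem (m : D.M) : D.ρ m ∈ sub D.i := D.ρ_range ▸ ⟨m, rfl⟩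

theorem mem_orb [Q.Normal] {a : Subgroup.centralizer ({z} : Set G)} (ha : a ∈ Q) {y : Fin 6 → F} :
    y ∈ orbV D.i (D.φ a) ↔
      ∃ m : D.M, D.φ ((m : Subgroup.centralizer ({z} : Set G)) * a * (m : Subgroup.centralizer ({z} : Set G))⁻¹) = y := by
  constructor
  · rintro ⟨x, hx, rfl⟩
    obtain ⟨m, rfl⟩ := (show x ∈ D.ρ.range from D.ρ_range.symm ▸ hx)
    exact ⟨m, D.ρ_act m a ha⟩
  · rintro ⟨m, rfl⟩
    exact ⟨D.ρ m, D.rho_mem m, (D.ρ_act m a ha).symm⟩

theorem orb_ncard_conj [Q.Normal] {a : Subgroup.centralizer ({z} : Set G)} (ha : a ∈ Q)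
    (c : Subgroup.centralizer ({z} : Set G)) :
    (orbV D.i (D.φ (c * a * c⁻¹))).ncard = (orbV D.i (D.φ a)).ncard := by
  have hn : Q.Normal := ‹_›
  have hM := D.Mn
  suffices key : ∀ (c : Subgroup.centralizer ({z} : Set G)) {a}, a ∈ Q →
      (orbV D.i (D.φ a)).ncard ≤ (orbV D.i (D.φ (c * a * c⁻¹))).ncard by
    refine le_antisymm ?_ (key c ha)
    have := key c⁻¹ (hn.conj_mem a ha c)
    simpa [mul_assoc] using this
  intro c a ha
  choose f hf hfφ using D.φ_surj
  refine Set.ncard_le_ncard_of_injOn (fun y => D.φ (c * f y * c⁻¹)) (fun y hy => ?_) (fun y _ y' _ e => ?_)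
    (Set.toFinite _)
  · obtain ⟨m, rfl⟩ := (D.mem_orb ha).1 hy
    refine (D.mem_orb (hn.conj_mem a ha c)).2 ⟨⟨_, hM.conj_mem _ m.2 c⟩, ?_⟩
    refine Eq.trans ?_ (D.φ_congr (hn.conj_mem a ha m) (hf _) (hfφ _).symm c)
    congr 1
    group
  · have := D.φ_congr (hn.conj_mem _ (hf y) c) (hn.conj_mem _ (hf y') c) e c⁻¹
    simp [mul_assoc] at this
    rwa [hfφ, hfφ] at this

theorem orbV_eq {v w : Fin 6 → F} (h : v ∈ orbV D.i w) : orbV D.i v = orbV D.i w := by
  obtain ⟨x, hx, rfl⟩ := h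
  ext y
  constructor
  · rintro ⟨u, hu, rfl⟩
    exact ⟨u * x, mul_mem hu hx, by rw [mat_mul, Matrix.mulVec_mulVec]⟩
  · rintro ⟨u, hu, rfl⟩
    exact ⟨u * x⁻¹, mul_mem hu (inv_mem hx), by
      rw [Matrix.mulVec_mulVec, ← mat_mul, inv_mul_cancel_right]⟩

theorem conj_of_same_orbit [Q.Normal] {a b : Subgroup.centralizer ({z} : Set G)} (ha : a ∈ Q) (hb : b ∈ Q)
    (hne : D.φ a ≠ 0) (h : D.φ b ∈ orbV D.i (D.φ a)) : ∃ c, c * a * c⁻¹ = b := by
  obtain ⟨m, hm⟩ := (D.mem_orb ha).1 h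
  have hma := ‹Q.Normal›.conj_mem a ha m
  have hne' : D.φ ((m : Subgroup.centralizer ({z} : Set G)) * a * (m : Subgroup.centralizer ({z} : Set G))⁻¹) ≠ 0 := by
    intro e
    refine hne ?_
    have h0 : D.φ 1 = 0 := (D.φ_zero 1 (one_mem Q)).2 (Or.inl rfl)
    have h1 := D.φ_congr hma (one_mem Q) (e.trans h0.symm) (m : Subgroup.centralizer ({z} : Set G))⁻¹
    simpa [mul_assoc, h0] using h1
  obtain ⟨q, hq, e⟩ := D.exists_conjQ hma hne' (D.eq_or_eq_mul hma hb hm)
  exact ⟨q * m, by rw [← e]; group⟩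

theorem involution {a : Subgroup.centralizer ({z} : Set G)} (ha : a ∈ Q) (h2 : orderOf a = 2) (hne : (a : G) ≠ z) :
    D.φ a ≠ 0 ∧ hermForm 6 F 2 (D.φ a) (D.φ a) = 0 := by
  refine ⟨fun h => ?_, (D.φ_iso a ha).2 (by rw [← pow_two, ← h2, pow_orderOf_eq_one])⟩
  rcases (D.φ_zero a ha).1 h with e | e
  · rw [show a = 1 from Subtype.ext e, orderOf_one] at h2
    norm_num at h2
  · exact hne e

theorem exists_involution {v : Fin 6 → F} (hv : v ≠ 0) (hh : hermForm 6 F 2 v v = 0) :
    ∃ a : Subgroup.centralizer ({z} : Set G), a ∈ Q ∧ orderOf a = 2 ∧ (a : G) ≠ z ∧ D.φ a = v := by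
  obtain ⟨a, ha, rfl⟩ := D.φ_surj v
  refine ⟨a, ha, orderOf_eq_prime ?_ fun e => hv ((D.φ_zero a ha).2 (Or.inl (by rw [e]; rfl))),
    fun e => hv ((D.φ_zero a ha).2 (Or.inr e)), rfl⟩
  rw [pow_two]
  exact (D.φ_iso a ha).1 hh

/-- Two orbits on involutions. -/
theorem two_orbits [Q.Normal] : ∃ s t : Subgroup.centralizer ({z} : Set G), s ∈ Q ∧ t ∈ Q ∧ orderOf s = 2 ∧
    orderOf t = 2 ∧ (s : G) ≠ z ∧ (t : G) ≠ z ∧
    (¬ ∃ h : Subgroup.centralizer ({z} : Set G), h * s * h⁻¹ = t) ∧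
    ∀ x : Subgroup.centralizer ({z} : Set G), x ∈ Q → orderOf x = 2 → (x : G) ≠ z →
      (∃ h : Subgroup.centralizer ({z} : Set G), h * s * h⁻¹ = x) ∨
        ∃ h : Subgroup.centralizer ({z} : Set G), h * t * h⁻¹ = x := by
  obtain ⟨hA, hB, hall⟩ := orb_two (F := F) D.i
  obtain ⟨s, hs, hs2, hsz, es⟩ := D.exists_involution vA_iso.2 vA_iso.1
  obtain ⟨t, ht, ht2, htz, et⟩ := D.exists_involution vB_iso.2 vB_iso.1
  refine ⟨s, t, hs, ht, hs2, ht2, hsz, htz, ?_, fun x hx hx2 hxz => ?_⟩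
  · rintro ⟨h, rfl⟩
    have := D.orb_ncard_conj hs h
    rw [et, es, hA, hB] at this
    norm_num at this
  · obtain ⟨h0, hh⟩ := D.involution hx hx2 hxz
    rcases hall _ h0 hh with h | h
    · exact Or.inl (D.conj_of_same_orbit hs hx (es.symm ▸ vA_iso.2) (es.symm ▸ h))
    · exact Or.inr (D.conj_of_same_orbit ht hx (et.symm ▸ vB_iso.2) (et.symm ▸ h))

/-- The conjugate of `Q` attached to a conjugate of `z` meets `Q` in at most 2^7 elements. -/
theorem inter_facts [Finite G] {g : G} (hgQ : g * z * g⁻¹ ∈ Q.map (Subgroup.centralizer ({z} : Set G)).subtype)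
    (hne : g * z * g⁻¹ ≠ z) :
    let E := Q.map (Subgroup.centralizer ({z} : Set G)).subtype
    z ∈ E.map (MulAut.conj g).toMonoidHom ∧
      Nat.card (E ⊓ E.map (MulAut.conj g).toMonoidHom : Subgroup G) ≤ 2 ^ 7 ∧
      Nat.card (E.map (MulAut.conj g).toMonoidHom ⊓ Subgroup.centralizer ({z} : Set G) : Subgroup G) = 2 ^ 12 := by
  intro E
  set s := g * z * g⁻¹ with hs
  set E' := E.map (MulAut.conj g).toMonoidHom with hE'
  have h := D.sing
  have h' : H18.SingPt E' s := h.conj g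
  have hcard : Nat.card E = 2 ^ 13 := by
    rw [Subgroup.card_map_of_injective (Subgroup.subtype_injective _), D.cardQ]
  have hcard' : Nat.card E' = 2 ^ 13 := by
    rw [hE', Subgroup.card_map_of_injective (MulEquiv.injective _), hcard]
  have hz' : z ∈ E' := h.symm_of_conj_big h' (by rw [hcard]; norm_num) rfl (fun q => by
    rw [hE', Subgroup.mem_map]
    exact ⟨fun hq => ⟨q, hq, rfl⟩, fun ⟨x, hx, e⟩ => by rwa [← mul_left_cancel (mul_right_cancel e)]⟩) hgQ
  refine ⟨hz', ?_, ?_⟩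
  · set A := E ⊓ E'
    have hA : A ≤ E ⊓ Subgroup.centralizer (A : Set G) := by
      refine le_inf inf_le_left fun x hx y hy => ?_
      have c1 := h.comm hy.1 hx.1
      have c2 := h'.comm hy.2 hx.2
      refine mul_inv_eq_iff_eq_mul.1 (mul_inv_eq_one.1 ?_)
      rcases h.pair c1 with e | e
      · exact e
      · rcases h'.pair c2 with e' | e'
        · exact e'
        · exact absurd (e.symm.trans e') (Ne.symm hne)
    have hm := h.card_mul A inf_le_left ⟨h.mem, hz'⟩
    rw [hcard] at hm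
    have := Subgroup.card_le_of_le hA
    nlinarith [Nat.card_pos (α := A)]
  · have hzle : Subgroup.zpowers s ⊔ Subgroup.zpowers z ≤ E' :=
      sup_le (Subgroup.zpowers_le.2 h'.mem) (Subgroup.zpowers_le.2 hz')
    have hm := h'.card_mul _ hzle (Subgroup.mem_sup_left (Subgroup.mem_zpowers s))
    have hsz : s * z = z * s := (h'.comm_x z hz').symm
    have hss : s * s = 1 := h'.xx
    have hzz : z * z = 1 := h.xx
    have h4 : Nat.card (Subgroup.zpowers s ⊔ Subgroup.zpowers z : Subgroup G) = 4 := by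
      have hcarr : ((Subgroup.zpowers s ⊔ Subgroup.zpowers z : Subgroup G) : Set G) = {1, s, z, s * z} := by
        refine Set.Subset.antisymm (fun x hx => ?_) fun x hx => ?_
        · let S : Subgroup G :=
            { carrier := {1, s, z, s * z}
              one_mem' := Or.inl rfl
              mul_mem' := by
                have e1 : s * (s * z) = z := by rw [← mul_assoc, hss, one_mul]
                have e2 : z * (s * z) = s := by rw [← mul_assoc, ← hsz, mul_assoc, hzz, mul_one]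
                have e3 : s * z * s = z := by rw [hsz, mul_assoc, hss, mul_one]
                have e4 : s * z * z = s := by rw [mul_assoc, hzz, mul_one]
                have e5 : s * z * (s * z) = 1 := by rw [mul_assoc, e2, hss]
                rintro a b (rfl | rfl | rfl | rfl) (rfl | rfl | rfl | rfl) <;>
                  simp [hss, hzz, e1, e2, e3, e4, e5, hsz.symm]
              inv_mem' := by
                rintro a (rfl | rfl | rfl | rfl)
                · simp
                · simp [inv_eq_of_mul_eq_one_right hss]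
                · simp [inv_eq_of_mul_eq_one_right hzz]
                · simp [inv_eq_of_mul_eq_one_right hss, inv_eq_of_mul_eq_one_right hzz, hsz] }
          have hle : Subgroup.zpowers s ⊔ Subgroup.zpowers z ≤ S :=
            sup_le (Subgroup.zpowers_le.2 (Or.inr (Or.inl rfl))) (Subgroup.zpowers_le.2 (Or.inr (Or.inr (Or.inl rfl))))
          exact hle hx
        · rcases hx with rfl | rfl | rfl | rfl
          · exact one_mem _
          · exact Subgroup.mem_sup_left (Subgroup.mem_zpowers _)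
          · exact Subgroup.mem_sup_right (Subgroup.mem_zpowers _)
          · exact mul_mem (Subgroup.mem_sup_left (Subgroup.mem_zpowers _)) (Subgroup.mem_sup_right (Subgroup.mem_zpowers _))
      have hs1 : s ≠ 1 := h'.xne
      have hz1 : z ≠ 1 := h.xne
      have hsz1 : s * z ≠ 1 := fun e => hne (by rw [← inv_eq_of_mul_eq_one_left e, h.x_inv])
      classical
      calc Nat.card (Subgroup.zpowers s ⊔ Subgroup.zpowers z : Subgroup G)
          = ((Subgroup.zpowers s ⊔ Subgroup.zpowers z : Subgroup G) : Set G).ncard := Nat.card_coe_set_eq _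
        _ = (↑({1, s, z, s * z} : Finset G) : Set G).ncard := by rw [hcarr]; simp
        _ = 4 := by
          rw [Set.ncard_coe_finset]
          simp [hs1.symm, hz1.symm, hsz1.symm, hne, hs1, hz1]
    have he : E' ⊓ Subgroup.centralizer ((Subgroup.zpowers s ⊔ Subgroup.zpowers z : Subgroup G) : Set G) =
        E' ⊓ Subgroup.centralizer ({z} : Set G) := by
      refine le_antisymm (le_inf inf_le_left fun x hx => ?_) (le_inf inf_le_left fun x hx => ?_)
      · exact Subgroup.mem_centralizer_singleton_iff.2 (hx.2 z (Subgroup.mem_sup_right (Subgroup.mem_zpowers z))).symm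
      · have hle : Subgroup.zpowers s ⊔ Subgroup.zpowers z ≤ Subgroup.centralizer ({x} : Set G) :=
          sup_le (Subgroup.zpowers_le.2 (Subgroup.mem_centralizer_singleton_iff.2 (h'.comm_x x hx.1).symm))
            (Subgroup.zpowers_le.2 (Subgroup.mem_centralizer_singleton_iff.2
              (Subgroup.mem_centralizer_singleton_iff.1 hx.2).symm))
        exact fun y hy => Subgroup.mem_centralizer_singleton_iff.1 (hle hy)
    rw [h4, he, hcard'] at hm
    omega

/-- A conjugate of `z` in `Q` lies in the long orbit. -/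
theorem conj_in_long [Finite G] [Q.Normal] {g : G} {s : Subgroup.centralizer ({z} : Set G)} (hsQ : s ∈ Q)
    (hg : (s : G) = g * z * g⁻¹) (hne : (s : G) ≠ z) : D.φ s ∈ orbV D.i (vB : Fin 6 → F) := by
  let E := Q.map (Subgroup.centralizer ({z} : Set G)).subtype
  let E' := E.map (MulAut.conj g).toMonoidHom
  obtain ⟨hz', hle, hc12⟩ := D.inter_facts (g := g) ⟨s, hsQ, hg⟩ (hg ▸ hne)
  have h' : H18.SingPt E' (s : G) := hg ▸ D.sing.conj g
  have hs2 : orderOf s = 2 := orderOf_eq_prime (Subtype.ext (by rw [pow_two]; exact h'.xx))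
    fun e => h'.xne (by rw [e]; rfl)
  obtain ⟨h0, hh⟩ := D.involution hsQ hs2 hne
  rcases (orb_two (F := F) D.i).2.2 _ h0 hh with hA | hB
  swap
  · exact hB
  exfalso
  let K : Subgroup (Subgroup.centralizer ({z} : Set G)) := E'.subgroupOf (Subgroup.centralizer ({z} : Set G))
  have hKc : Nat.card K = 2 ^ 12 := by
    rw [← hc12]
    show Nat.card (E'.subgroupOf (Subgroup.centralizer ({z} : Set G))) = Nat.card (E' ⊓ Subgroup.centralizer ({z} : Set G) : Subgroup G)
    rw [← Subgroup.inf_subgroupOf_right E' (Subgroup.centralizer ({z} : Set G)),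
      Nat.card_congr (Subgroup.subgroupOfEquivOfLe (inf_le_right : E' ⊓ (Subgroup.centralizer ({z} : Set G)) ≤ (Subgroup.centralizer ({z} : Set G)))).toEquiv]
  let KM : Subgroup D.M := K.subgroupOf D.M
  have h2K : IsPGroup 2 K := IsPGroup.of_card (n := 12) hKc
  have hbot := two_core_short (F := F) D.i hA (KM.map D.ρ)
    (by rintro _ ⟨m, -, rfl⟩; exact D.rho_mem m)
    ((h2K.comap_of_injective _ (Subgroup.subtype_injective _)).map _)
    (by
      rintro _ ⟨m, hm, rfl⟩
      rw [← D.ρ_act m s hsQ]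
      congr 1
      refine Subtype.ext ?_
      show ((m : (Subgroup.centralizer ({z} : Set G))) : G) * s * ((m : (Subgroup.centralizer ({z} : Set G))) : G)⁻¹ = s
      exact mul_inv_eq_iff_eq_mul.2 (h'.comm_x _ hm))
    (by
      intro x hx hfx d hd
      obtain ⟨m, rfl⟩ := (show x ∈ D.ρ.range from D.ρ_range.symm ▸ hx)
      obtain ⟨k, hk, rfl⟩ := hd
      have hms := ‹Q.Normal›.conj_mem s hsQ m
      rw [← D.ρ_act m s hsQ] at hfx
      obtain ⟨q, hq, e⟩ := D.exists_conjQ hms (by rw [hfx]; exact h0) (D.eq_or_eq_mul hms hsQ hfx)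
      let m' : D.M := ⟨q, D.QM hq⟩ * m
      have hρq : D.ρ ⟨q, D.QM hq⟩ = 1 := by
        have hfix : ∀ a ∈ Q, D.φ (q * a * q⁻¹) = D.φ a := by
          intro a ha
          have hqa := ‹Q.Normal›.conj_mem a ha q
          have h1 := D.φ_mul _ hq _ (mul_mem ha (inv_mem hq))
          have h2 := D.φ_mul _ ha _ (inv_mem hq)
          have h3 := D.φ_mul _ hq _ (inv_mem hq)
          rw [mul_inv_cancel, (D.φ_zero 1 (one_mem _)).2 (Or.inl rfl)] at h3
          rw [mul_assoc, h1, h2, add_left_comm, ← h3, add_zero]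
        refine ext_mat (Matrix.ext fun r c => ?_)
        obtain ⟨a, ha, ea⟩ := D.φ_surj (Pi.single c 1)
        have h4 := D.ρ_act ⟨q, D.QM hq⟩ a ha
        rw [show ((⟨q, D.QM hq⟩ : D.M) : (Subgroup.centralizer ({z} : Set G))) = q from rfl, hfix a ha, ea, Matrix.mulVec_single_one] at h4
        have := congrFun h4.symm r
        rw [mat_one]
        simpa [Pi.single_apply, Matrix.one_apply, eq_comm] using this
      have hρ' : D.ρ m' = D.ρ m := by rw [map_mul, hρq, one_mul]
      rw [← hρ']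
      refine ⟨m' * k * m'⁻¹, ?_, by rw [map_mul, map_mul, map_inv]⟩
      have hcent : (((m' : D.M) : (Subgroup.centralizer ({z} : Set G))) : G) * s = s * (((m' : D.M) : (Subgroup.centralizer ({z} : Set G))) : G) := by
        have e' : (q : G) * (((m : (Subgroup.centralizer ({z} : Set G))) : G) * (s : G) * ((m : (Subgroup.centralizer ({z} : Set G))) : G)⁻¹) * (q : G)⁻¹ = (s : G) :=
          congrArg Subtype.val e
        show (q : G) * ((m : (Subgroup.centralizer ({z} : Set G))) : G) * (s : G) = (s : G) * ((q : G) * ((m : (Subgroup.centralizer ({z} : Set G))) : G))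
        conv_rhs => rw [← e']
        group
      exact h'.norm _ hcent _ hk)
  have hkQ : KM ≤ Q.subgroupOf D.M := fun m hm =>
    D.ρ_ker m (Subgroup.mem_bot.1 (hbot ▸ ⟨m, hm, rfl⟩))
  let EE : Subgroup (Subgroup.centralizer ({z} : Set G)) := (E ⊓ E').subgroupOf (Subgroup.centralizer ({z} : Set G))
  have hKM : K ⊓ D.M ≤ EE := fun x hx => ⟨⟨x, hkQ (x := ⟨x, hx.2⟩) hx.1, rfl⟩, hx.1⟩
  have hcEE : Nat.card EE ≤ 2 ^ 7 := by
    rw [Nat.card_congr (Subgroup.subgroupOfEquivOfLe (show E ⊓ E' ≤ (Subgroup.centralizer ({z} : Set G)) from inf_le_left.trans (Subgroup.map_subtype_le Q))).toEquiv]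
    exact hle
  have hidx : (D.M.subgroupOf K).index ≤ 2 := by
    have := D.Mn
    have hd : D.M.relIndex K ∣ D.M.index := Subgroup.relIndex_dvd_index_of_normal D.M K
    rw [D.M2] at hd
    exact Nat.le_of_dvd (by norm_num) hd
  have hcm := (D.M.subgroupOf K).card_mul_index
  rw [hKc, ← Subgroup.inf_subgroupOf_right D.M K,
    Nat.card_congr (Subgroup.subgroupOfEquivOfLe (inf_le_right : D.M ⊓ K ≤ K)).toEquiv,
    Subgroup.inf_subgroupOf_right] at hcm
  have h1 := Subgroup.card_le_of_le (inf_comm D.M K ▸ hKM)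
  nlinarith

/-- The conjugates of `z` in `Q` form one orbit. -/
theorem one_orbit [Finite G] [Q.Normal] {s t : Subgroup.centralizer ({z} : Set G)} (hs : s ∈ Q) (ht : t ∈ Q)
    {g g' : G} (hgs : (s : G) = g * z * g⁻¹) (hgt : (t : G) = g' * z * g'⁻¹) (hs1 : (s : G) ≠ z)
    (ht1 : (t : G) ≠ z) : ∃ c, c * s * c⁻¹ = t := by
  have h1 := D.conj_in_long hs hgs hs1
  have h2 := D.conj_in_long ht hgt ht1
  refine D.conj_of_same_orbit hs ht (fun e => ?_) (D.orbV_eq h1 ▸ h2)
  obtain ⟨x, hx, ex⟩ := h1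
  rw [e] at ex
  refine (vB_iso (F := F)).2 ?_
  have := congrArg (fun u => mat x⁻¹ *ᵥ u) ex
  simpa [Matrix.mulVec_mulVec, ← mat_mul, mat_one] using this

end Model

end Cfsg.Agent.H84.LF
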