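import Cfsg.Agent.H8.U62.Main
import Cfsg.Agent.H84.LF.Check

/-!
# Orbits of the three subgroups of type triple cover of U4(3) on isotropic vectors
-/

set_option autoImplicit false
set_option linter.unusedSectionVars false
set_option linter.unusedSimpArgs false
set_option maxRecDepth 20000
set_option maxHeartbeats 1000000

namespace Cfsg.Agent.H84.LF

open Matrix Cfsg.Agent.H8.U62 Cfsg.Agent.H8.U62.Setup

variable {F : Type} [Setup F]

/-- The orbit of a vector. -/
def orbV (i : Fin 3) (v : Fin 6 → F) : Set (Fin 6 → F) := {y | ∃ x ∈ sub i, mat x *ᵥ v = y}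

/-- The stabiliser of a vector. -/
def fixV (v : Fin 6 → F) : Subgroup (SU6 F) where
  carrier := {x | mat x *ᵥ v = v}
  one_mem' := by
    show mat (1 : SU6 F) *ᵥ v = v
    rw [mat_one, Matrix.one_mulVec]
  mul_mem' {a b} ha hb := by
    simp only [Set.mem_setOf_eq, mat_mul, ← Matrix.mulVec_mulVec] at *
    rw [hb, ha]
  inv_mem' {a} ha := by
    simp only [Set.mem_setOf_eq] at *
    conv_lhs => rw [← ha, Matrix.mulVec_mulVec, ← mat_mul, inv_mul_cancel, mat_one, Matrix.one_mulVec]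

/-- Representative of the short orbit. -/
noncomputable def vA : Fin 6 → F := vecF om 5

/-- Representative of the long orbit. -/
noncomputable def vB : Fin 6 → F := vecF om 85

theorem vecF_inj {v w : ℕ} (hv : v < 4096) (hw : w < 4096) (h : vecF (om : F) v = vecF om w) : v = w := by
  have := low_eq_of_vecF_eq h
  have e : ∀ x < 4096, Nat.land x 4095 = x := fun x hx => by
    show x &&& (2 ^ 12 - 1) = x
    rw [Nat.and_two_pow_sub_one_eq_mod, Nat.mod_eq_of_lt hx]
  rwa [e v hv, e w hw] at this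

theorem grow_sound (P : ℕ → Prop) (gens : List ℕ) (hg : ∀ n p, P p → P (mvC (gens.getD n oneC) p)) :
    ∀ (t : List ℕ) (m : ℕ), (∀ v, m.testBit v = true → P v) → ∀ v, (grow gens t m).testBit v = true → P v
  | [], m, h, v, hv => h v hv
  | s :: t, m, h, v, hv => by
    simp only [grow, force_eq] at hv
    refine grow_sound P gens hg t _ (fun u hu => ?_) v hv
    cases hb : m.testBit (s / 4)
    · rw [hb, cond_false] at hu; exact h u hu
    · rw [hb, cond_true, show ∀ a b, Nat.lor a b = a ||| b from fun _ _ => rfl, Nat.testBit_or,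
        Nat.one_shiftLeft, Nat.testBit_two_pow, Bool.or_eq_true, decide_eq_true_eq] at hu
      rcases hu with hu | hu
      · exact h u hu
      · exact hu ▸ hg _ _ (h _ hb)

theorem real_wordS {H : Subgroup (SU6 F)} {gens : List ℕ} (hg : ∀ A ∈ gens, Real H A) :
    ∀ l : List ℕ, Real H (wordS gens l)
  | [] => Real.one H
  | a :: l => by rw [wordS, force_eq]; exact (Real.getD hg a).mmC (real_wordS hg l)

theorem reach (H : Subgroup (SU6 F)) {gens : List ℕ} (hg : ∀ A ∈ gens, Real H A) {v0 : ℕ} (h0 : v0 < 4096)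
    (t : List ℕ) {v : ℕ} (hv : (grow gens t (1 <<< v0)).testBit v = true) :
    v < 4096 ∧ ∃ x ∈ H, mat x *ᵥ vecF (om : F) v0 = vecF om v := by
  refine grow_sound (fun u => u < 4096 ∧ ∃ x ∈ H, mat x *ᵥ vecF (om : F) v0 = vecF om u) gens ?_ t _ ?_ v hv
  · rintro n p ⟨-, x, hx, e⟩
    obtain ⟨a, ha, hA⟩ := Real.getD hg n
    refine ⟨mvN_lt (om : F) hom two 6 _ _, a * x, mul_mem ha hx, ?_⟩
    rw [mat_mul, ← Matrix.mulVec_mulVec, e, vecF_mvC _ hom two, hA]
  · intro u hu
    rw [Nat.one_shiftLeft, Nat.testBit_two_pow, decide_eq_true_eq] at hu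
    exact hu ▸ ⟨h0, 1, H.one_mem, by rw [mat_one, Matrix.one_mulVec]⟩

theorem orb_ok (i : Fin 3) : orbOK i.1 = true := by
  match i with
  | ⟨0, _⟩ => exact orb_ok0
  | ⟨1, _⟩ => exact orb_ok1
  | ⟨2, _⟩ => exact orb_ok2

theorem orb_facts (i : Fin 3) :
    (subGenC i.1).length = 4 ∧
    (∀ v < 4096, ((maskA i.1).testBit v = true → ∀ G ∈ subGenC i.1, (maskA i.1).testBit (mvC G v) = true) ∧
      ((maskB i.1).testBit v = true → ∀ G ∈ subGenC i.1, (maskB i.1).testBit (mvC G v) = true) ∧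
      (v ≠ 0 → orthC v v = true → (maskA i.1).testBit v = true ∨ (maskB i.1).testBit v = true) ∧
      (nbr (maskA i.1) v = true → (maskO i.1).testBit v = true)) ∧
    (((List.range 4096).filter fun v => (maskA i.1).testBit v).length = 378 ∧
      ((List.range 4096).filter fun v => (maskB i.1).testBit v).length = 1701 ∧
      ((List.range 4096).filter fun v => nbr (maskA i.1) v).length = 135) ∧
    (∀ G ∈ stGenC i.1, mvC G 5 = 5) ∧
    (nbr (maskA i.1) 80 = true ∧ nbr (maskA i.1) 144 = true ∧ nbr (maskA i.1) 1280 = true ∧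
      nbr (maskA i.1) 2304 = true) := by
  have h := orb_ok i
  simp only [orbOK, force_eq, Bool.and_eq_true, List.all_eq_true, List.mem_range] at h
  obtain ⟨⟨⟨⟨⟨⟨⟨⟨⟨hl, hv⟩, hA⟩, hB⟩, hO⟩, hs⟩, h1⟩, h2⟩, h3⟩, h4⟩ := h
  refine ⟨Nat.eq_of_beq_eq_true hl, fun v hv' => ?_,
    ⟨Nat.eq_of_beq_eq_true hA, Nat.eq_of_beq_eq_true hB, Nat.eq_of_beq_eq_true hO⟩,
    fun G hG => Nat.eq_of_beq_eq_true (hs G hG), h1, h2, h3, h4⟩
  obtain ⟨⟨⟨a, b⟩, c⟩, d⟩ := hv v hv'
  refine ⟨fun hb G hG => ?_, fun hb G hG => ?_, fun hne ho => ?_, fun hb => ?_⟩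
  · rw [hb, cond_true] at a; exact List.all_eq_true.1 a G hG
  · rw [hb, cond_true] at b; exact List.all_eq_true.1 b G hG
  · rw [Bool.eq_false_iff.2 fun e => hne (Nat.eq_of_beq_eq_true e), cond_false, ho, cond_true] at c
    exact Bool.or_eq_true _ _ ▸ c
  · rw [hb, cond_true] at d; exact d

theorem orb_eq (i : Fin 3) {v0 : ℕ} (h0 : v0 < 4096) {t : List ℕ} {m : ℕ}
    (hm : m = grow (subGenC i.1) t (1 <<< v0))
    (hc : ∀ v < 4096, m.testBit v = true → ∀ G ∈ subGenC i.1, m.testBit (mvC G v) = true)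
    (hb : m.testBit v0 = true) :
    orbV i (vecF (om : F) v0) = vecF om '' {v | v < 4096 ∧ m.testBit v = true} := by
  ext y
  constructor
  · rintro ⟨x, hx, rfl⟩
    have hclos : Submonoid.closure (Set.range (subGen (F := F) i)) = (sub (F := F) i).toSubmonoid :=
      Subgroup.closure_toSubmonoid_of_finite.symm
    have hx' : x ∈ (sub (F := F) i).toSubmonoid := hx
    rw [← hclos] at hx'
    clear hx
    induction hx' using Submonoid.closure_induction_left with
    | one => exact ⟨v0, ⟨h0, hb⟩, by rw [mat_one, Matrix.one_mulVec]⟩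
    | mul_left s hs y hy ih =>
      obtain ⟨g, rfl⟩ := hs
      obtain ⟨u, ⟨hu, hub⟩, e⟩ := ih
      have hmem : (subGenC i.1).getD g.1 0 ∈ subGenC i.1 := by
        rw [List.getD_eq_getElem?_getD, List.getElem?_eq_getElem (by rw [(orb_facts i).1]; exact g.2)]
        exact List.getElem_mem _
      refine ⟨mvC ((subGenC i.1).getD g.1 0) u, ⟨mvN_lt (om : F) hom two 6 _ _, hc u hu hub _ hmem⟩, ?_⟩
      rw [mat_mul, ← Matrix.mulVec_mulVec, ← e, vecF_mvC _ hom two, ← mat_subGen]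
  · rintro ⟨v, ⟨-, hv⟩, rfl⟩
    exact (reach _ (real_subGenC i) h0 t (hm ▸ hv)).2

theorem bit_start (gens : List ℕ) : ∀ (t : List ℕ) (m v : ℕ), m.testBit v = true → (grow gens t m).testBit v = true
  | [], m, v, h => h
  | s :: t, m, v, h => by
    simp only [grow, force_eq]
    refine bit_start gens t _ v ?_
    cases m.testBit (s / 4)
    · exact h
    · rw [cond_true, show ∀ a b, Nat.lor a b = a ||| b from fun _ _ => rfl, Nat.testBit_or, h, Bool.true_or]

theorem ncard_img (p : ℕ → Bool) :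
    (vecF (om : F) '' {v | v < 4096 ∧ p v = true}).ncard = ((List.range 4096).filter p).length := by
  rw [Set.InjOn.ncard_image fun a ha b hb e => vecF_inj ha.1 hb.1 e,
    show {v | v < 4096 ∧ p v = true} = ↑((List.range 4096).filter p).toFinset by ext v; simp,
    Set.ncard_coe_finset, List.toFinset_card_of_nodup (List.nodup_range.filter _)]

theorem orbA_eq (i : Fin 3) :
    orbV i (vA : Fin 6 → F) = vecF om '' {v | v < 4096 ∧ (maskA i.1).testBit v = true} :=
  orb_eq i (by norm_num) rfl (fun v hv => ((orb_facts i).2.1 v hv).1)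
    (bit_start _ _ _ _ (by decide))

theorem orbB_eq (i : Fin 3) :
    orbV i (vB : Fin 6 → F) = vecF om '' {v | v < 4096 ∧ (maskB i.1).testBit v = true} :=
  orb_eq i (by norm_num) rfl (fun v hv => ((orb_facts i).2.1 v hv).2.1)
    (bit_start _ _ _ _ (by decide))

theorem vA_iso : hermForm 6 F 2 (vA : Fin 6 → F) vA = 0 ∧ (vA : Fin 6 → F) ≠ 0 :=
  ⟨(hermForm_eq_zero_iff _ hom two).2 (by decide), fun h =>
    absurd (vecF_inj (F := F) (v := 5) (w := 0) (by norm_num) (by norm_num) (h.trans (vecF_zero _ hom two).symm))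
      (by norm_num)⟩

theorem vB_iso : hermForm 6 F 2 (vB : Fin 6 → F) vB = 0 ∧ (vB : Fin 6 → F) ≠ 0 :=
  ⟨(hermForm_eq_zero_iff _ hom two).2 (by decide), fun h =>
    absurd (vecF_inj (F := F) (v := 85) (w := 0) (by norm_num) (by norm_num) (h.trans (vecF_zero _ hom two).symm))
      (by norm_num)⟩

/-- Two orbits on isotropic vectors. -/
theorem orb_two (i : Fin 3) :
    (orbV i (vA : Fin 6 → F)).ncard = 378 ∧ (orbV i (vB : Fin 6 → F)).ncard = 1701 ∧
    ∀ w : Fin 6 → F, w ≠ 0 → hermForm 6 F 2 w w = 0 → w ∈ orbV i vA ∨ w ∈ orbV i vB := by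
  refine ⟨?_, ?_, fun w hw hh => ?_⟩
  · rw [orbA_eq, ncard_img, (orb_facts i).2.2.1.1]
  · rw [orbB_eq, ncard_img, (orb_facts i).2.2.1.2.1]
  · obtain ⟨v, hv, rfl⟩ := exists_vecF w
    rcases ((orb_facts i).2.1 v hv).2.2.1 (fun e => hw (by rw [e, vecF_zero _ hom two]))
      ((hermForm_eq_zero_iff _ hom two).1 hh) with h | h
    · exact Or.inl (orbA_eq (F := F) i ▸ ⟨v, ⟨hv, h⟩, rfl⟩)
    · exact Or.inr (orbB_eq (F := F) i ▸ ⟨v, ⟨hv, h⟩, rfl⟩)

theorem tau_not_mem (i : Fin 3) : (tau : SU6 F) ∉ sub i := by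
  intro h
  obtain ⟨hs, hp⟩ := tau_perm (F := F)
  obtain ⟨j, m, hm, e⟩ := exists_decomp i h
  have h1 : fr (subRep (F := F) i j) = fr (subRep (F := F) i 0) := by
    rw [← fr_mul_monoE (subRep i j) hm, ← e, subRep_zero]; exact hs
  rw [fr_subRep_injective (F := F) i h1, subRep_zero, one_mul] at e
  have := sign_perm_monoE (g := ⟨tau, hs⟩) (e ▸ hm)
  rw [hp, Equiv.Perm.sign_swap (by decide)] at this
  exact absurd this (by decide)

/-- The neighbours of the first representative. -/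
noncomputable def nbrs (i : Fin 3) : Set (Fin 6 → F) :=
  vecF om '' {v | v < 4096 ∧ nbr (maskA i.1) v = true}

theorem nbrs_invariant (i : Fin 3) {x : SU6 F} (hx : x ∈ sub i) (hf : mat x *ᵥ (vA : Fin 6 → F) = vA)
    {w : Fin 6 → F} (hw : w ∈ nbrs i) : mat x *ᵥ w ∈ nbrs i := by
  obtain ⟨v, ⟨hv, hn⟩, rfl⟩ := hw
  simp only [nbr, Bool.and_eq_true] at hn
  have h1 : mat x *ᵥ vecF (om : F) v ∈ orbV i vA := by
    have : vecF (om : F) v ∈ orbV i vA := orbA_eq (F := F) i ▸ ⟨v, ⟨hv, hn.1.1⟩, rfl⟩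
    obtain ⟨y, hy, e⟩ := this
    exact ⟨x * y, mul_mem hx hy, by rw [mat_mul, ← Matrix.mulVec_mulVec, e]⟩
  rw [orbA_eq] at h1
  obtain ⟨u, ⟨hu, hub⟩, e⟩ := h1
  refine ⟨u, ⟨hu, ?_⟩, e⟩
  simp only [nbr, Bool.and_eq_true]
  have h5 : vecF (om : F) 5 = vA := rfl
  refine ⟨⟨hub, (hermForm_eq_zero_iff (om : F) hom two).1 ?_⟩, ?_⟩
  · rw [e, h5, ← hf, herm_mulVec, ← h5]
    exact (hermForm_eq_zero_iff _ hom two).2 hn.1.2
  · simp only [notMult, Bool.not_eq_true', Bool.or_eq_false_iff]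
    have inj : ∀ c : F, vecF om u = c • vecF (om : F) 5 → vecF (om : F) v = c • vecF om 5 := by
      intro c hc
      rw [e, h5] at hc
      have := congrArg (fun z => mat x⁻¹ *ᵥ z) hc
      simp only [Matrix.mulVec_mulVec, Matrix.mulVec_smul, ← mat_mul, inv_mul_cancel, mat_one,
        Matrix.one_mulVec] at this
      rw [this, show mat x⁻¹ *ᵥ (vA : Fin 6 → F) = vA from (fixV vA).inv_mem hf, h5]
    have hn3 := hn.2
    simp only [notMult, Bool.not_eq_true', Bool.or_eq_false_iff] at hn3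
    refine ⟨⟨?_, ?_⟩, ?_⟩ <;> refine Bool.eq_false_iff.2 fun hb => ?_ <;>
      rw [Nat.eq_of_beq_eq_true hb] at inj
    · have := inj 1 (by rw [one_smul])
      rw [one_smul] at this
      rw [vecF_inj hv (by norm_num) this] at hn3
      simp at hn3
    · have := inj om (vecF_sW _ hom two _)
      rw [← vecF_sW _ hom two] at this
      rw [vecF_inj hv (by decide) this] at hn3
      simp at hn3
    · have := inj (om * om) (by rw [vecF_sW _ hom two, vecF_sW _ hom two, mul_smul])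
      rw [mul_smul, ← vecF_sW _ hom two, ← vecF_sW _ hom two] at this
      rw [vecF_inj hv (by decide) this] at hn3
      simp at hn3

theorem eq_one_or_tau {d : SU6 F} (h5 : mat d *ᵥ vecF (om : F) 5 = vecF om 5)
    (h80 : mat d *ᵥ vecF (om : F) 80 = vecF om 80) (h144 : mat d *ᵥ vecF (om : F) 144 = vecF om 144)
    (h1280 : mat d *ᵥ vecF (om : F) 1280 = vecF om 1280) (h2304 : mat d *ᵥ vecF (om : F) 2304 = vecF om 2304) :
    d = 1 ∨ d = tau := by
  have hox : (1 : F) + om ≠ 0 := fun h =>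
    om_ne_one (by linear_combination h - two (F := F) : (om : F) = 1)
  have pair : ∀ a b : ℕ, mat d *ᵥ vecF (om : F) (Nat.xor a b) = vecF om (Nat.xor a b) →
      mat d *ᵥ vecF (om : F) (Nat.xor a (sW b)) = vecF om (Nat.xor a (sW b)) →
      mat d *ᵥ vecF (om : F) a = vecF om a ∧ mat d *ᵥ vecF (om : F) b = vecF om b := by
    intro a b h1 h2
    simp only [vecF_xor _ hom two, vecF_sW _ hom two, Matrix.mulVec_add, Matrix.mulVec_smul] at h1 h2
    have hb : mat d *ᵥ vecF (om : F) b = vecF om b := by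
      funext k
      refine mul_left_cancel₀ hox ?_
      have e1 := congrFun h1 k
      have e2 := congrFun h2 k
      simp only [Pi.add_apply, Pi.smul_apply, smul_eq_mul] at e1 e2
      linear_combination e2 + e1 -
        ((mat d *ᵥ vecF (om : F) a) k - vecF om a k) * two (F := F)
    rw [hb] at h1
    exact ⟨add_right_cancel h1, hb⟩
  obtain ⟨c2, c3⟩ := pair 16 64 h80 (show mat d *ᵥ vecF (om : F) 144 = vecF om 144 from h144)
  obtain ⟨c4, c5⟩ := pair 256 1024 h1280 (show mat d *ᵥ vecF (om : F) 2304 = vecF om 2304 from h2304)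
  have hj : ∀ j : Fin 6, 2 ≤ j.1 → mat d *ᵥ eF j = (eF j : Fin 6 → F) := by
    intro j hj
    fin_cases j
    · simp at hj
    · simp at hj
    · exact c2
    · exact c3
    · exact c4
    · exact c5
  have hsum : (eF 0 : Fin 6 → F) + eF 1 = vecF om 5 := by
    show vecF (om : F) 1 + vecF om 4 = _
    rw [← vecF_xor _ hom two]; rfl
  obtain ⟨w, hw⟩ : ∃ w, w = mat d *ᵥ (eF 0 : Fin 6 → F) := ⟨_, rfl⟩
  have hh : ∀ x y : Fin 6 → F, hermForm 6 F 2 x y = ∑ k, x k * y k ^ 2 := fun _ _ => rfl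
  have hw0 : ∀ j : Fin 6, 2 ≤ j.1 → w j = 0 := by
    intro j hj'
    have := herm_mulVec d (eF 0 : Fin 6 → F) (eF j)
    rw [← hw, hj j hj', hh, hh, eF_eq_single, eF_eq_single, Finset.sum_eq_single j, Finset.sum_eq_single j] at this
    · rw [Pi.single_eq_same, Pi.single_eq_of_ne (show j ≠ 0 by rintro rfl; simp at hj'), one_pow, mul_one,
        zero_mul] at this
      exact this
    all_goals intros; simp_all
  have e01 : w 0 + w 1 = 1 := by
    have := herm_mulVec d (eF 0 : Fin 6 → F) (eF 0 + eF 1)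
    rw [← hw, hsum, h5, ← hsum, hh, hh] at this
    simpa [Fin.sum_univ_six, eF_eq_single, Pi.single_apply] using this
  have e00 : w 0 * w 0 ^ 2 + w 1 * w 1 ^ 2 = 1 := by
    have := herm_mulVec d (eF 0 : Fin 6 → F) (eF 0)
    rw [← hw, hh, hh] at this
    simpa [Fin.sum_univ_six, eF_eq_single, Pi.single_apply, hw0 2, hw0 3, hw0 4, hw0 5] using this
  have hext : ∀ g : SU6 F, (∀ j : Fin 6, mat d *ᵥ (eF j : Fin 6 → F) = mat g *ᵥ eF j) → d = g := by
    intro g hg
    refine ext_mat (Matrix.ext fun r c => ?_)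
    have := congrFun (hg c) r
    rwa [eF_eq_single, Matrix.mulVec_single_one, Matrix.mulVec_single_one] at this
  have h1 : mat d *ᵥ (eF 1 : Fin 6 → F) = vecF om 5 + w := by
    rw [hw, ← h5, ← Matrix.mulVec_add, ← hsum]
    congr 1
    funext k
    simp only [Pi.add_apply]
    linear_combination -(eF (F := F) 0 k) * two (F := F)
  by_cases hz : w 0 = 0
  · right
    have hw1 : w = eF 1 := by
      funext k
      rw [eF_eq_single]
      fin_cases k <;> simp [hz, hw0, show w 1 = 1 by linear_combination e01 - hz]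
    have ht : ∀ j : Fin 6, colC tauC j.1 = (1 <<< (2 * (Equiv.swap (0 : Fin 6) 1 j).1)) := by decide +kernel
    refine hext _ fun j => ?_
    rw [col_eq tau mat_tau j, ht]
    by_cases h2 : 2 ≤ j.1
    · rw [hj j h2, Equiv.swap_apply_of_ne_of_ne (by intro e; subst e; simp at h2)
        (by intro e; subst e; simp at h2)]
      rfl
    · have : j = 0 ∨ j = 1 := by rcases j with ⟨j, hj6⟩; simp [Fin.ext_iff] at *; omega
      rcases this with rfl | rfl
      · rw [Equiv.swap_apply_left, ← hw, hw1]; rfl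
      · rw [Equiv.swap_apply_right, h1, hw1, ← hsum, add_assoc]
        funext k
        show _ + _ = (eF 0 : Fin 6 → F) k
        simp only [Pi.add_apply]
        linear_combination (eF (F := F) 1 k) * two (F := F)
  · left
    have hw1 : w 1 = 0 := by
      by_contra hne
      have a := cube_eq_one hz
      have b := cube_eq_one hne
      exact one_ne_zero (by linear_combination (-1 : F) * e00 + a + b + two (F := F) : (1 : F) = 0)
    have hw' : w = eF 0 := by
      funext k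
      rw [eF_eq_single]
      fin_cases k <;> simp [hw1, hw0, show w 0 = 1 by linear_combination e01 - hw1]
    refine hext _ fun j => ?_
    rw [mat_one, Matrix.one_mulVec]
    by_cases h2 : 2 ≤ j.1
    · exact hj j h2
    · have : j = 0 ∨ j = 1 := by rcases j with ⟨j, hj6⟩; simp [Fin.ext_iff] at *; omega
      rcases this with rfl | rfl
      · rw [← hw, hw']
      · rw [h1, hw', ← hsum]
        funext k
        simp only [Pi.add_apply]
        linear_combination (eF (F := F) 0 k) * two (F := F)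

/-- The stabiliser of the first representative has no nontrivial normal 2-subgroup. -/
theorem two_core_vA (i : Fin 3) (D : Subgroup (SU6 F)) (hD : D ≤ sub i) (h2 : IsPGroup 2 D)
    (hfix : ∀ d ∈ D, mat d *ᵥ (vA : Fin 6 → F) = vA)
    (hn : ∀ x ∈ sub i, mat x *ᵥ (vA : Fin 6 → F) = vA → ∀ d ∈ D, x * d * x⁻¹ ∈ D) : D = ⊥ := by
  classical
  let act : MulAction D ↥(nbrs (F := F) i) :=
    { smul := fun d w => ⟨mat d.1 *ᵥ w.1, nbrs_invariant i (hD d.2) (hfix _ d.2) w.2⟩
      one_smul := fun w => Subtype.ext (Matrix.one_mulVec _)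
      mul_smul := fun a b w => Subtype.ext (by
        show mat (a.1 * b.1) *ᵥ w.1 = _
        rw [mat_mul, ← Matrix.mulVec_mulVec]; rfl) }
  have hcard : ¬ 2 ∣ Nat.card ↥(nbrs (F := F) i) := by
    rw [Nat.card_coe_set_eq, nbrs, ncard_img, (orb_facts i).2.2.1.2.2]
    norm_num
  have : Fact (Nat.Prime 2) := ⟨Nat.prime_two⟩
  obtain ⟨w, hw⟩ := h2.nonempty_fixed_point_of_prime_not_dvd_card _ hcard
  have hwfix : ∀ d ∈ D, mat d *ᵥ w.1 = w.1 := fun d hd =>
    congrArg Subtype.val (hw ⟨d, hd⟩)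
  set H := sub (F := F) i ⊓ fixV vA
  have hgens : ∀ A ∈ stGenC i.1, Real H A := by
    intro A hA
    have h5 := (orb_facts i).2.2.2.1 A hA
    obtain ⟨l, -, rfl⟩ := List.mem_map.1 hA
    obtain ⟨x, hx, hxA⟩ := real_wordS (real_subGenC (F := F) i) l
    refine ⟨x, ⟨hx, ?_⟩, hxA⟩
    show mat x *ᵥ vecF om 5 = vecF om 5
    rw [hxA, ← vecF_mvC _ hom two, h5]
  have htr : ∀ y ∈ nbrs (F := F) i, ∃ x ∈ H, mat x *ᵥ vecF (om : F) 80 = y := by
    rintro y ⟨v, ⟨hv, hn'⟩, rfl⟩
    exact (reach H hgens (by norm_num) _ (((orb_facts i).2.1 v hv).2.2.2 hn')).2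
  have hall : ∀ d ∈ D, ∀ y ∈ nbrs (F := F) i, mat d *ᵥ y = y := by
    intro d hd y hy
    obtain ⟨a, ha, ea⟩ := htr w.1 w.2
    obtain ⟨b, hb, eb⟩ := htr y hy
    have hx : b * a⁻¹ ∈ H := mul_mem hb (inv_mem ha)
    have ey : mat (b * a⁻¹) *ᵥ w.1 = y := by
      rw [← ea, Matrix.mulVec_mulVec, ← mat_mul, inv_mul_cancel_right, eb]
    have hd' : (b * a⁻¹)⁻¹ * d * (b * a⁻¹) ∈ D := by
      simpa using hn _ (inv_mem hx.1) ((fixV vA).inv_mem hx.2) d hd
    rw [← ey, Matrix.mulVec_mulVec, ← mat_mul,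
      show d * (b * a⁻¹) = b * a⁻¹ * ((b * a⁻¹)⁻¹ * d * (b * a⁻¹)) by group,
      mat_mul, ← Matrix.mulVec_mulVec, hwfix _ hd']
  refine D.eq_bot_iff_forall.2 fun d hd => ?_
  obtain ⟨-, -, -, -, g1, g2, g3, g4⟩ := orb_facts i
  rcases eq_one_or_tau (d := d) (hfix d hd) (hall d hd _ ⟨80, ⟨by norm_num, g1⟩, rfl⟩)
    (hall d hd _ ⟨144, ⟨by norm_num, g2⟩, rfl⟩) (hall d hd _ ⟨1280, ⟨by norm_num, g3⟩, rfl⟩)
    (hall d hd _ ⟨2304, ⟨by norm_num, g4⟩, rfl⟩) with h | h
  · exact h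
  · exact absurd (h ▸ hD hd) (tau_not_mem i)

/-- The stabiliser of a vector of the short orbit has no nontrivial normal 2-subgroup. -/
theorem two_core_short (i : Fin 3) {v : Fin 6 → F} (hv : v ∈ orbV i (vA : Fin 6 → F))
    (D : Subgroup (SU6 F)) (hD : D ≤ sub i) (h2 : IsPGroup 2 D) (hfix : ∀ d ∈ D, mat d *ᵥ v = v)
    (hn : ∀ x ∈ sub i, mat x *ᵥ v = v → ∀ d ∈ D, x * d * x⁻¹ ∈ D) : D = ⊥ := by
  obtain ⟨y, hy, rfl⟩ := hv
  have key : ∀ x : SU6 F, mat (y * x * y⁻¹) *ᵥ (mat y *ᵥ vA) = mat y *ᵥ (mat x *ᵥ (vA : Fin 6 → F)) := by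
    intro x
    simp only [Matrix.mulVec_mulVec, ← mat_mul, inv_mul_cancel_right]
  have inj : ∀ u u' : Fin 6 → F, mat y *ᵥ u = mat y *ᵥ u' → u = u' := fun u u' h => by
    have := congrArg (fun z => mat y⁻¹ *ᵥ z) h
    simpa only [Matrix.mulVec_mulVec, ← mat_mul, inv_mul_cancel, mat_one, Matrix.one_mulVec] using this
  have hbot := two_core_vA i (D.comap (MulAut.conj y).toMonoidHom)
    (fun d hd => by
      have := mul_mem (mul_mem (inv_mem hy) (hD hd)) hy
      simpa [mul_assoc] using this)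
    (h2.comap_of_injective _ (MulAut.conj y).injective)
    (fun d hd => inj _ _ (by rw [← key]; exact hfix _ hd))
    (fun x hx hxv d hd => by
      have := hn (y * x * y⁻¹) (mul_mem (mul_mem hy hx) (inv_mem hy)) (by rw [key, hxv]) _ hd
      show y * (x * d * x⁻¹) * y⁻¹ ∈ D
      have e : y * (x * d * x⁻¹) * y⁻¹ = y * x * y⁻¹ * (y * d * y⁻¹) * (y * x * y⁻¹)⁻¹ := by group
      rw [e]; exact this)
  refine D.eq_bot_iff_forall.2 fun d hd => ?_
  have : y⁻¹ * d * y ∈ D.comap (MulAut.conj y).toMonoidHom := by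
    show y * (y⁻¹ * d * y) * y⁻¹ ∈ D
    simpa [mul_assoc] using hd
  rw [hbot, Subgroup.mem_bot] at this
  calc d = y * (y⁻¹ * d * y) * y⁻¹ := by group
    _ = 1 := by rw [this]; group

end Cfsg.Agent.H84.LF
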