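import Cfsg.Agent.H8.U62.Main
import Cfsg.Agent.H3.Simple

/-!
# The simple group U4(3) has no small representation over the field with two elements
-/

set_option autoImplicit false
set_option linter.unusedSectionVars false

namespace Cfsg.Agent.H84.LF

open Cfsg.Agent.H8.U62

section General

variable {U : Type*} [AddCommGroup U] [Finite U] {P : Type*} [Group P] [Finite P]
  (f : P →* AddMonoid.End U)

/-- The fixed points of a subgroup. -/
def fixU (R : Subgroup P) : Set U := {u | ∀ r ∈ R, f r u = u}

theorem map_mul_apply' (x y : P) (u : U) : f (x * y) u = f x (f y u) := by rw [map_mul]; rfl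

theorem map_one_apply' (u : U) : f 1 u = u := by rw [map_one]; rfl

open Classical in
/-- The projection to the fixed points. -/
noncomputable def projU [Fintype P] (R : Subgroup P) (u : U) : U := ∑ r : R, f r.1 u

variable [Fintype P]

theorem projU_mem (R : Subgroup P) (u : U) : projU f R u ∈ fixU f R := by
  classical
  intro r hr
  rw [projU, map_sum]
  simp only [← map_mul_apply']
  exact Equiv.sum_comp (Equiv.mulLeft (⟨r, hr⟩ : R)) (fun s : R => f s.1 u)

theorem projU_fix (h2 : ∀ u : U, u + u = 0) {R : Subgroup P} (hodd : Odd (Nat.card R)) {u : U}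
    (hu : u ∈ fixU f R) : projU f R u = u := by
  classical
  rw [projU, Finset.sum_congr rfl (fun r _ => hu r.1 r.2), Finset.sum_const, Finset.card_univ,
    ← Nat.card_eq_fintype_card]
  obtain ⟨k, hk⟩ := hodd
  rw [hk, add_nsmul, one_nsmul, mul_nsmul, two_nsmul, h2, nsmul_zero, zero_add]

theorem projU_comm {D : Subgroup P} (hc : ∀ x ∈ D, ∀ y ∈ D, x * y = y * x) {R : Subgroup P} (hR : R ≤ D)
    {a : P} (ha : a ∈ D) (u : U) : projU f R (f a u) = f a (projU f R u) := by
  classical
  rw [projU, projU, map_sum]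
  exact Finset.sum_congr rfl fun r _ => by rw [← map_mul_apply', ← map_mul_apply', hc _ (hR r.2) _ ha]

/-- The kernel criterion. -/
theorem small_rep (h2 : ∀ u : U, u + u = 0) (hU : Nat.card U < 4096) (D Zc : Subgroup P) [D.Normal] [Zc.Normal]
    (hD : IsPGroup 3 D) (hc : ∀ x ∈ D, ∀ y ∈ D, x * y = y * x) (hZD : Zc ≤ D)
    (hfZ : ∀ z ∈ Zc, f z = 1) (hbig : 27 * Nat.card Zc ≤ Nat.card D) (hexp : ∀ a ∈ D, a * (a * a) = 1)
    (hirr : ∀ R : Subgroup P, Zc ≤ R → R ≤ D → (∀ p, ∀ x ∈ R, p * x * p⁻¹ ∈ R) → R = Zc ∨ R = D)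
    (hperm : ∀ k : ℕ, k ≤ 5 → ∀ φ : P →* Equiv.Perm (Fin k), (∀ d ∈ D, φ d = 1) → φ = 1) :
    ∀ d ∈ D, f d = 1 := by
  classical
  have hodd : ∀ R : Subgroup P, R ≤ D → Odd (Nat.card R) := fun R hR => by
    have : Fact (Nat.Prime 3) := ⟨Nat.prime_three⟩
    obtain ⟨k, hk⟩ := IsPGroup.iff_card.1 (hD.to_le hR)
    rw [hk]; exact (by decide : Odd 3).pow
  have hzero : ∀ (R : Subgroup P), (0 : U) ∈ fixU f R := fun R r _ => map_zero _
  let good : Subgroup P → Prop := fun R => Zc ≤ R ∧ R ≤ D ∧ ∃ u ∈ fixU f R, u ∉ fixU f D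
  by_contra hne
  push Not at hne
  obtain ⟨d0, hd0, hd0'⟩ := hne
  have hgood0 : good Zc := by
    refine ⟨le_rfl, hZD, ?_⟩
    obtain ⟨u, hu⟩ : ∃ u, f d0 u ≠ u := by
      by_contra h; push Not at h; exact hd0' (AddMonoidHom.ext h)
    exact ⟨u, fun r hr => by rw [hfZ r hr]; rfl, fun h => hu (h d0 hd0)⟩
  let mx : Subgroup P → Prop := fun R => good R ∧ ∀ R', good R' → R ≤ R' → R' = R
  have hex : ∀ R, good R → ∃ R', R ≤ R' ∧ mx R' := by
    intro R hR
    obtain ⟨R', hle, hmax⟩ := (Set.toFinite {R | good R}).exists_le_maximal hR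
    exact ⟨R', hle, hmax.1, fun R'' h1 h2 => le_antisymm (hmax.2 h1 h2) h2⟩
  have hjoin : ∀ R R', mx R → mx R' → R ≠ R' → ∀ u, u ∈ fixU f R → u ∈ fixU f R' → u ∈ fixU f D := by
    intro R R' hR hR' hne u hu hu'
    by_contra hnD
    have hfix : u ∈ fixU f (R ⊔ R') := by
      intro r hr
      let S : Subgroup P :=
        { carrier := {x | f x u = u}
          one_mem' := map_one_apply' f u
          mul_mem' := fun {a b} (ha : f a u = u) (hb : f b u = u) => by
            show f (a * b) u = u
            rw [map_mul_apply', hb, ha]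
          inv_mem' := fun {a} (ha : f a u = u) => by
            show f a⁻¹ u = u
            conv_lhs => rw [← ha, ← map_mul_apply', inv_mul_cancel, map_one_apply'] }
      exact (sup_le (fun x hx => hu x hx) (fun x hx => hu' x hx) : R ⊔ R' ≤ S) hr
    have hg : good (R ⊔ R') := ⟨hR.1.1.trans le_sup_left, sup_le hR.1.2.1 hR'.1.2.1, u, hfix, hnD⟩
    exact hne ((hR.2 _ hg le_sup_left).symm.trans (hR'.2 _ hg le_sup_right))
  -- independence
  let X := {R : Subgroup P // mx R}
  let W : X → Set U := fun R => {u | u ∈ fixU f R.1 ∧ projU f D u = 0}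
  have hW4 : ∀ R : X, 4 ≤ Nat.card ↥(W R) := by
    intro R
    obtain ⟨⟨-, hRD, u, hu, huD⟩, -⟩ := R.2
    set w := u + projU f D u
    have hpD : projU f D w = 0 := by
      have h : projU f D w = projU f D u + projU f D (projU f D u) := by
        simp only [w, projU, map_add, Finset.sum_add_distrib]
      rw [h, projU_fix f h2 (hodd D le_rfl) (projU_mem f D u), h2]
    have hwR : w ∈ fixU f R.1 := fun r hr => by
      rw [map_add, hu r hr, projU_mem f D u r (hRD hr)]
    have hwD : w ∉ fixU f D := fun h => huD fun r hr => by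
      have h' := h r hr
      rw [map_add, projU_mem f D u r hr] at h'
      exact add_right_cancel h'
    obtain ⟨a, ha, haw⟩ : ∃ a ∈ D, f a w ≠ w := by
      by_contra h; push Not at h; exact hwD h
    have hw0 : w ≠ 0 := fun e => haw (by rw [e, map_zero])
    have haw0 : f a w ≠ 0 := fun e => hw0 (by
      rw [← map_one_apply' f w, ← inv_mul_cancel a, map_mul_apply', e, map_zero])
    have hawW : f a w ∈ W R := ⟨fun r hr => by
        rw [← map_mul_apply', hc _ (hRD hr) _ ha, map_mul_apply', hwR r hr],
      by rw [projU_comm f hc le_rfl ha, hpD, map_zero]⟩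
    have hadd : w + f a w ∈ W R := ⟨fun r hr => by rw [map_add, hwR r hr, hawW.1 r hr], by
      have h : projU f D (w + f a w) = projU f D w + projU f D (f a w) := by
        simp only [projU, map_add, Finset.sum_add_distrib]
      rw [h, hpD, hawW.2, add_zero]⟩
    have hsub : (↑({0, w, f a w, w + f a w} : Finset U) : Set U) ⊆ W R := by
      intro x hx
      simp only [Finset.coe_insert, Finset.coe_singleton, Set.mem_insert_iff, Set.mem_singleton_iff] at hx
      rcases hx with rfl | rfl | rfl | rfl
      · exact ⟨hzero _, Finset.sum_eq_zero fun r _ => map_zero _⟩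
      · exact ⟨hwR, hpD⟩
      · exact hawW
      · exact hadd
    have hne4 : w + f a w ≠ 0 := fun e => haw (by
      rw [eq_neg_of_add_eq_zero_right e, neg_eq_of_add_eq_zero_left (h2 w)])
    have h4 : ({0, w, f a w, w + f a w} : Finset U).card = 4 := by
      simp [hw0.symm, haw0.symm, hne4.symm, Ne.symm haw, haw0, hw0]
    rw [Nat.card_coe_set_eq, ← h4, ← Set.ncard_coe_finset]
    exact Set.ncard_le_ncard hsub (Set.toFinite _)
  have hcardX : Nat.card X ≤ 5 := by
    let σ : (∀ R : X, W R) → U := fun t => ∑ R, (t R).1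
    have hinj : Function.Injective σ := by
      intro s t e
      funext R0
      refine Subtype.ext ?_
      have hdiff : ∀ R : X, projU f R0.1 ((s R).1 - (t R).1) = if R = R0 then (s R).1 - (t R).1 else 0 := by
        intro R
        have hfixR : ((s R).1 - (t R).1) ∈ fixU f R.1 := fun r hr => by
          rw [map_sub, (s R).2.1 r hr, (t R).2.1 r hr]
        split
        · next h => exact projU_fix f h2 (hodd _ R0.2.1.2.1) (h ▸ hfixR)
        · next h =>
          have hb : projU f R0.1 ((s R).1 - (t R).1) ∈ fixU f R.1 := fun r hr => by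
            rw [← projU_comm f hc R0.2.1.2.1 (R.2.1.2.1 hr), hfixR r hr]
          have hD0 := hjoin R0.1 R.1 R0.2 R.2 (fun e' => h (Subtype.ext e'.symm)) _ (projU_mem f _ _) hb
          rw [← projU_fix f h2 (hodd D le_rfl) hD0]
          show projU f D (∑ r : R0.1, f r.1 _) = 0
          have hs : ∀ y : R0.1 → U, projU f D (∑ r : R0.1, y r) = ∑ r : R0.1, projU f D (y r) := fun y => by
            simp only [projU, map_sum]; exact Finset.sum_comm
          rw [hs]
          refine Finset.sum_eq_zero fun r _ => ?_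
          rw [projU_comm f hc le_rfl (R0.2.1.2.1 r.2)]
          have : projU f D ((s R).1 - (t R).1) = projU f D (s R).1 - projU f D (t R).1 := by
            simp only [projU, map_sub, Finset.sum_sub_distrib]
          rw [this, (s R).2.2, (t R).2.2, sub_zero, map_zero]
      have h0 : projU f R0.1 (∑ R, ((s R).1 - (t R).1)) = 0 := by
        rw [Finset.sum_sub_distrib, show ∑ R, (s R).1 = ∑ R, (t R).1 from e, sub_self]
        exact Finset.sum_eq_zero fun r _ => map_zero _
      have hlin : projU f R0.1 (∑ R, ((s R).1 - (t R).1)) = ∑ R, projU f R0.1 ((s R).1 - (t R).1) := by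
        simp only [projU, map_sum]; exact Finset.sum_comm
      rw [hlin, Finset.sum_congr rfl (fun R _ => hdiff R), Finset.sum_ite_eq' Finset.univ R0,
        if_pos (Finset.mem_univ _)] at h0
      exact sub_eq_zero.1 h0
    have h := Nat.card_le_card_of_injective σ hinj
    rw [Nat.card_pi] at h
    have hp : 4 ^ Fintype.card X ≤ ∏ R : X, Nat.card ↥(W R) := by
      rw [← Finset.card_univ]
      exact Finset.pow_card_le_prod _ _ _ fun R _ => hW4 R
    rw [Nat.card_eq_fintype_card]
    by_contra h6
    have : 4 ^ 6 ≤ 4 ^ Fintype.card X := Nat.pow_le_pow_right (by norm_num) (by omega)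
    omega
  -- the permutation action
  have hconj : ∀ (p : P) (R : Subgroup P), mx R → mx (R.map (MulAut.conj p).toMonoidHom) := by
    have hg : ∀ (p : P) (R : Subgroup P), good R → good (R.map (MulAut.conj p).toMonoidHom) := by
      rintro p R ⟨h1, h2', u, hu, huD⟩
      refine ⟨fun z hz => ⟨p⁻¹ * z * p, h1 (by simpa using ‹Zc.Normal›.conj_mem z hz p⁻¹), by simp [mul_assoc]⟩,
        ?_, f p u, ?_, ?_⟩
      · rintro _ ⟨x, hx, rfl⟩
        exact ‹D.Normal›.conj_mem x (h2' hx) p
      · rintro _ ⟨x, hx, rfl⟩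
        show f (p * x * p⁻¹) (f p u) = f p u
        rw [← map_mul_apply', inv_mul_cancel_right, map_mul_apply', hu x hx]
      · intro h
        refine huD fun r hr => ?_
        have := h (p * r * p⁻¹) (‹D.Normal›.conj_mem r hr p)
        rw [← map_mul_apply', inv_mul_cancel_right, map_mul_apply'] at this
        have h' := congrArg (f p⁻¹) this
        rwa [← map_mul_apply', ← map_mul_apply' f p⁻¹ p, inv_mul_cancel, map_one_apply', map_one_apply'] at h'
    intro p R hR
    refine ⟨hg p R hR.1, fun R' hR' hle => ?_⟩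
    have h1 := hg p⁻¹ R' hR'
    have h2' : R ≤ R'.map (MulAut.conj p⁻¹).toMonoidHom := fun x hx =>
      ⟨p * x * p⁻¹, hle ⟨x, hx, rfl⟩, by simp [mul_assoc]⟩
    have h3 := hR.2 _ h1 h2'
    refine le_antisymm (fun x hx => ?_) hle
    exact ⟨p⁻¹ * x * p, h3 ▸ ⟨x, hx, by simp⟩, by simp [mul_assoc]⟩
  let φ : P →* Equiv.Perm X :=
    { toFun := fun p =>
        { toFun := fun R => ⟨_, hconj p R.1 R.2⟩
          invFun := fun R => ⟨_, hconj p⁻¹ R.1 R.2⟩
          left_inv := fun R => Subtype.ext (by
            simp only [Subgroup.map_map]; ext x; simp [mul_assoc])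
          right_inv := fun R => Subtype.ext (by
            simp only [Subgroup.map_map]; ext x; simp [mul_assoc]) }
      map_one' := Equiv.ext fun R => Subtype.ext (by ext x; simp)
      map_mul' := fun a b => Equiv.ext fun R => Subtype.ext (by
        show R.1.map (MulAut.conj (a * b)).toMonoidHom = _
        rw [map_mul]
        show R.1.map ((MulAut.conj a).toMonoidHom.comp (MulAut.conj b).toMonoidHom) = _
        rw [← Subgroup.map_map]
        rfl) }
  have hφD : ∀ d ∈ D, φ d = 1 := fun d hd => Equiv.ext fun R => Subtype.ext (by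
    show R.1.map (MulAut.conj d).toMonoidHom = R.1
    have e : ∀ x ∈ R.1, d * x * d⁻¹ = x := fun x hx => by rw [hc d hd x (R.2.1.2.1 hx), mul_inv_cancel_right]
    ext y
    constructor
    · rintro ⟨x, hx, rfl⟩; show d * x * d⁻¹ ∈ R.1; rw [e x hx]; exact hx
    · intro hy; exact ⟨y, hy, e y hy⟩)
  have htriv : φ = 1 := by
    let e := Finite.equivFin X
    have h := hperm _ hcardX (e.permCongrHom.toMonoidHom.comp φ) fun d hd => by
      show e.permCongrHom (φ d) = 1
      rw [hφD d hd, map_one]
    refine MonoidHom.ext fun p => e.permCongrHom.injective ?_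
    exact (DFunLike.congr_fun h p).trans (map_one e.permCongrHom).symm
  have hZmax : ∀ R : X, R.1 = Zc := fun R => by
    rcases hirr R.1 R.2.1.1 R.2.1.2.1 (fun p x hx => by
      have h' : R.1.map (MulAut.conj p).toMonoidHom = R.1 :=
        congrArg Subtype.val (Equiv.ext_iff.1 (DFunLike.congr_fun htriv p) R)
      rw [← h']; exact ⟨x, hx, rfl⟩) with h | h
    · exact h
    · exfalso
      obtain ⟨u, hu, huD⟩ := R.2.1.2.2
      exact huD (h ▸ hu)
  -- no maximal member can be the centre
  obtain ⟨R0, -, hR0⟩ := hex Zc hgood0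
  have hR0Z : R0 = Zc := hZmax ⟨R0, hR0⟩
  obtain ⟨⟨-, -, u, hu, huD⟩, hmaxZ⟩ := hR0
  subst hR0Z
  set w := u + projU f D u
  have hpD : projU f D w = 0 := by
    have h : projU f D w = projU f D u + projU f D (projU f D u) := by
      simp only [w, projU, map_add, Finset.sum_add_distrib]
    rw [h, projU_fix f h2 (hodd D le_rfl) (projU_mem f D u), h2]
  have hwne : w ≠ 0 := fun e => huD (by
    have : u = projU f D u := (eq_neg_of_add_eq_zero_left e).trans (neg_eq_of_add_eq_zero_left (h2 _))
    rw [this]; exact projU_mem f D u)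
  have hwZ : w ∈ fixU f R0 := fun r hr => by rw [hfZ r hr]; rfl
  have hkill : ∀ a ∈ D, a ∉ R0 → ∀ v : U, v ∈ fixU f R0 → projU f D v = 0 → f (a * a) v = f a v + v := by
    intro a ha haZ v hv hvD
    set t := v + f a v + f (a * a) v
    have ht : t = 0 := by
      have hta : f a t = t := by
        simp only [t, map_add, ← map_mul_apply', hexp a ha, map_one_apply']
        abel
      let S : Subgroup P :=
        { carrier := {x | f x t = t}
          one_mem' := map_one_apply' f t
          mul_mem' := fun {a b} (ha : f a t = t) (hb : f b t = t) => by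
            show f (a * b) t = t
            rw [map_mul_apply', hb, ha]
          inv_mem' := fun {a} (ha : f a t = t) => by
            show f a⁻¹ t = t
            conv_lhs => rw [← ha, ← map_mul_apply', inv_mul_cancel, map_one_apply'] }
      have hle : R0 ⊔ Subgroup.zpowers a ≤ S :=
        sup_le (fun x hx => by show f x t = t; rw [hfZ x hx]; rfl) (Subgroup.zpowers_le.2 hta)
      have htD : t ∈ fixU f D := by
        by_contra hn
        have hg : good (R0 ⊔ Subgroup.zpowers a) :=
          ⟨le_sup_left, sup_le hZD (Subgroup.zpowers_le.2 ha), t, fun r hr => hle hr, hn⟩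
        exact haZ (hmaxZ _ hg le_sup_left ▸ Subgroup.mem_sup_right (Subgroup.mem_zpowers a))
      rw [← projU_fix f h2 (hodd D le_rfl) htD]
      have hlin : projU f D t = projU f D v + projU f D (f a v) + projU f D (f (a * a) v) := by
        simp only [t, projU, map_add, Finset.sum_add_distrib]
      rw [hlin, projU_comm f hc le_rfl ha, projU_comm f hc le_rfl (mul_mem ha ha), hvD, map_zero, map_zero,
        add_zero, add_zero]
    have := eq_neg_of_add_eq_zero_right ht
    rw [this, neg_eq_of_add_eq_zero_left (h2 _), add_comm]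
  have hDZ : ¬ D ≤ R0 := fun h => by
    have := Subgroup.card_le_of_le h
    have : 0 < Nat.card R0 := Nat.card_pos
    omega
  obtain ⟨a, ha, haZ⟩ := SetLike.not_le_iff_exists.1 hDZ
  obtain ⟨b, hb, hbZ⟩ : ∃ b ∈ D, ∀ n : Fin 3, b * a ^ n.1 ∉ R0 := by
    by_contra hno
    push Not at hno
    let g : D → R0 × Fin 3 := fun b => (⟨_, (hno b.1 b.2).choose_spec⟩, (hno b.1 b.2).choose)
    have hg : Function.Injective g := by
      intro x y e
      simp only [g, Prod.mk.injEq, Subtype.mk.injEq] at e
      rw [e.2] at e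
      exact Subtype.ext (mul_right_cancel e.1)
    have := Nat.card_le_card_of_injective g hg
    rw [Nat.card_prod, Nat.card_fin] at this
    have : 0 < Nat.card R0 := Nat.card_pos
    omega
  have hab : a * b ∈ D := mul_mem ha hb
  have hb0 : b ∉ R0 := by simpa using hbZ 0
  have habZ : a * b ∉ R0 := by simpa [hc a ha b hb] using hbZ 1
  have haabZ : a * (a * b) ∉ R0 := by
    have := hbZ 2
    rwa [show b * a ^ (2 : Fin 3).1 = a * (a * b) by
      rw [show ((2 : Fin 3).1) = 2 from rfl, pow_two, ← mul_assoc, ← hc a ha b hb, mul_assoc, ← hc a ha b hb]] at this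
  have key : ∀ x ∈ D, ∀ y ∈ D, x ∉ R0 → y ∉ R0 → x * y ∉ R0 → f x w = f y w := by
    intro x hx y hy hxZ hyZ hxyZ
    have h1 := hkill (x * y) (mul_mem hx hy) hxyZ w hwZ hpD
    have hyw : f y w ∈ fixU f R0 := fun r hr => by rw [hfZ r hr]; rfl
    have hywD : projU f D (f y w) = 0 := by rw [projU_comm f hc le_rfl hy, hpD, map_zero]
    rw [show x * y * (x * y) = (x * x) * (y * y) by
        rw [mul_assoc, ← mul_assoc y, ← hc x hx y hy]; simp only [mul_assoc],
      map_mul_apply', hkill y hy hyZ w hwZ hpD, map_add, hkill x hx hxZ w hwZ hpD,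
      hkill x hx hxZ _ hyw hywD, ← map_mul_apply'] at h1
    have h' : f x w + f y w = 0 := by
      calc f x w + f y w = (f (x * y) w + f y w + (f x w + w)) - (f (x * y) w + w) := by abel
        _ = 0 := by rw [h1, sub_self]
    rw [eq_neg_of_add_eq_zero_left h', neg_eq_of_add_eq_zero_left (h2 _)]
  have e1 := key a ha b hb haZ hb0 habZ
  have e2 := key a ha (a * b) hab haZ habZ haabZ
  rw [map_mul_apply'] at e2
  have e3 : f b w = w := by
    have := congrArg (f a⁻¹) e2
    rw [← map_mul_apply', ← map_mul_apply' f a⁻¹ a, inv_mul_cancel, map_one_apply', map_one_apply'] at this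
    exact this.symm
  have h1 := hkill b hb hb0 w hwZ hpD
  rw [map_mul_apply', e3, e3] at h1
  exact hwne (add_eq_left.1 h1.symm)

end General

variable {F : Type} [Setup F] {L : Type} [Setup9 L]

/-- A representation of dimension below twelve of the first subgroup that kills the scalars is trivial on the
monomial subgroup's diagonal part. -/
theorem sub_rep_diag {U : Type*} [AddCommGroup U] [Finite U] (h2 : ∀ u : U, u + u = 0)
    (hU : Nat.card U < 4096) (f : sub (F := F) 0 →* AddMonoid.End U)
    (hf : ∀ x, x.1 ∈ Subgroup.center (SU6 F) → f x = 1) :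
    ∀ x : sub (F := F) 0, x.1 ∈ diagG → f x = 1 := by
  classical
  have : Fintype (monoE (F := F)) := Fintype.ofFinite _
  let P := monoE (F := F)
  let D : Subgroup P := diagG.subgroupOf monoE
  let Zc : Subgroup P := (Subgroup.center (SU6 F)).subgroupOf monoE
  have hZc3 : Nat.card Zc = 3 := by
    rw [Nat.card_congr (Subgroup.subgroupOfEquivOfLe (center_le_diagG.trans diagG_le_monoE)).toEquiv, card_center]
  have hDc : Nat.card D = 243 := by
    rw [Nat.card_congr (Subgroup.subgroupOfEquivOfLe diagG_le_monoE).toEquiv, card_diagG]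
  have hDn : D.Normal := by
    refine ⟨fun d hd p => ?_⟩
    obtain ⟨hs, hds⟩ := mem_diagG.1 hd
    have hn : (diagS (F := F)).Normal := MonoidHom.normal_ker _
    exact mem_diagG.2 ⟨_, hn.conj_mem ⟨d.1, hs⟩ hds ⟨p.1, monoE_le_stab p.2⟩⟩
  have hdg : ∀ d ∈ D, ∃ h : d.1 ∈ stab, (⟨d.1, h⟩ : stab (F := F)) ∈ diagS := fun d hd => mem_diagG.1 hd
  let g : P →* AddMonoid.End U := f.comp (Subgroup.inclusion (monoE_le_sub 0))
  intro x hx
  refine small_rep g h2 hU D Zc (IsPGroup.of_card (n := 5) (by rw [hDc]; norm_num)) ?_ ?_ ?_ ?_ ?_ ?_ ?_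
    ⟨x.1, diagG_le_monoE hx⟩ hx
  · intro a ha b hb
    obtain ⟨_, h1⟩ := hdg a ha
    obtain ⟨_, h2⟩ := hdg b hb
    exact Subtype.ext (diag_commute h1 h2)
  · exact fun z hz => center_le_diagG hz
  · exact fun z hz => hf _ hz
  · rw [hDc, hZc3]; norm_num
  · intro a ha
    obtain ⟨_, h1⟩ := hdg a ha
    exact Subtype.ext (diag_cube h1)
  · intro R hZR hRD hn
    have h1 := diag_irreducible (F := F) (R.map monoE.subtype)
      (fun z hz => ⟨⟨z, diagG_le_monoE (center_le_diagG hz)⟩, hZR hz, rfl⟩)
      (by rintro _ ⟨r, hr, rfl⟩; exact hRD hr)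
      (by rintro m hm _ ⟨r, hr, rfl⟩; exact ⟨_, hn ⟨m, hm⟩ r hr, rfl⟩)
    rcases h1 with h | h
    · refine Or.inl (Subgroup.map_injective (Subgroup.subtype_injective _) ?_)
      rw [h, Subgroup.map_subgroupOf_eq_of_le (center_le_diagG.trans diagG_le_monoE)]
    · refine Or.inr (Subgroup.map_injective (Subgroup.subtype_injective _) ?_)
      rw [h, Subgroup.map_subgroupOf_eq_of_le diagG_le_monoE]
  · intro k0 hk5 φ hφ
    let ψ0 : P →* Equiv.Perm (Fin 6) := (perm (F := F)).comp (Subgroup.inclusion monoE_le_stab)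
    have hψA : ∀ p, ψ0 p ∈ alternatingGroup (Fin 6) := fun p =>
      Equiv.Perm.mem_alternatingGroup.2 (sign_perm_monoE p.2)
    let ψ : P →* alternatingGroup (Fin 6) := ψ0.codRestrict _ hψA
    have hker : ψ.ker = D := by
      ext p
      rw [MonoidHom.mem_ker, Subgroup.mem_subgroupOf]
      constructor
      · intro h; exact mem_diagG.2 ⟨monoE_le_stab p.2, MonoidHom.mem_ker.2 (congrArg Subtype.val h)⟩
      · intro h
        obtain ⟨hs, hd⟩ := mem_diagG.1 h
        exact Subtype.ext (MonoidHom.mem_ker.1 hd)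
    have hA6 : Nat.card (alternatingGroup (Fin 6)) = 360 := by
      rw [nat_card_alternatingGroup, Nat.card_fin]; rfl
    have hψs : ψ.range = ⊤ := by
      refine Subgroup.eq_top_of_card_eq _ ?_
      have h := ψ.ker.card_mul_index
      rw [Subgroup.index_ker, hker, hDc, card_monoE] at h
      rw [hA6]
      omega
    have : (φ.ker.map ψ).Normal :=
      (MonoidHom.normal_ker φ).map ψ (MonoidHom.range_eq_top.1 hψs)
    have hsimp : IsSimpleGroup (alternatingGroup (Fin 6)) := alternatingGroup.isSimpleGroup (by simp)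
    rcases hsimp.eq_bot_or_eq_top_of_normal _ this with h | h
    · exfalso
      have hKD : φ.ker ≤ D := by rw [← hker]; exact (Subgroup.map_eq_bot_iff _).1 h
      have h1 := φ.ker.card_mul_index
      rw [Subgroup.index_ker, card_monoE] at h1
      have h2 : Nat.card φ.range ∣ Nat.card (Equiv.Perm (Fin k0)) := Subgroup.card_subgroup_dvd_card _
      rw [Nat.card_perm, Nat.card_fin] at h2
      have h3 : Nat.card φ.ker ≤ 243 := hDc ▸ Subgroup.card_le_of_le hKD
      have h4 : Nat.card φ.range ≤ 120 :=
        (Nat.le_of_dvd (Nat.factorial_pos _) h2).trans (Nat.factorial_le hk5)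
      nlinarith
    · refine MonoidHom.ext fun p => ?_
      have hp : ψ p ∈ φ.ker.map ψ := by rw [h]; trivial
      obtain ⟨k, hk, e⟩ := hp
      have : k⁻¹ * p ∈ φ.ker := by
        have : k⁻¹ * p ∈ ψ.ker := by rw [MonoidHom.mem_ker, map_mul, map_inv, e, inv_mul_cancel]
        rw [hker] at this
        exact MonoidHom.mem_ker.2 (hφ _ this)
      have := mul_mem hk this
      rw [mul_inv_cancel_left] at this
      exact MonoidHom.mem_ker.1 this

/-- The simple group has no faithful module of dimension below twelve over the field with two elements. -/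
theorem psu_rep_trivial (F : Type) [Setup F] {S : Type*} [Group S] (e : S ≃* Cfsg.PSU 4 L 3) {U : Type*}
    [AddCommGroup U] [Finite U] (h2 : ∀ u : U, u + u = 0) (hU : Nat.card U < 4096)
    (f : S →* AddMonoid.End U) : f = 1 := by
  obtain ⟨φ0⟩ := sub_mod_center_iso (F := F) (L := L) 0
  let Z0 := (Subgroup.center (SU6 F)).subgroupOf (sub (F := F) 0)
  let ι : sub (F := F) 0 →* S := (φ0.trans e.symm).toMonoidHom.comp (QuotientGroup.mk' Z0)
  have hι : Function.Surjective ι := (φ0.trans e.symm).surjective.comp (QuotientGroup.mk'_surjective _)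
  have hd := sub_rep_diag (F := F) h2 hU (f.comp ι) fun x hx => by
    show f ((φ0.trans e.symm) (x : sub (F := F) 0 ⧸ Z0)) = 1
    rw [(QuotientGroup.eq_one_iff x).2 hx, map_one, map_one]
  have hS : IsSimpleGroup S := by
    have hP := H3.isSimpleGroup_PSU (n := 4) (Setup9.hL (L := L)) (by norm_num) (by norm_num)
    haveI : Nontrivial S := e.toEquiv.nontrivial
    exact IsSimpleGroup.isSimpleGroup_of_surjective e.symm.toMonoidHom e.symm.surjective
  let fu : S →* (AddMonoid.End U)ˣ := f.toHomUnits
  rcases hS.eq_bot_or_eq_top_of_normal fu.ker (MonoidHom.normal_ker _) with h | h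
  · exfalso
    obtain ⟨x, hxd, hxz⟩ : ∃ x ∈ diagG (F := F), x ∉ Subgroup.center (SU6 F) := by
      by_contra hno
      push Not at hno
      have := Subgroup.card_le_of_le hno
      rw [card_diagG, card_center] at this
      omega
    let x' : sub (F := F) 0 := ⟨x, monoE_le_sub 0 (diagG_le_monoE hxd)⟩
    have hk : ι x' ∈ fu.ker := Units.ext (hd x' hxd)
    rw [h, Subgroup.mem_bot] at hk
    exact hxz ((QuotientGroup.eq_one_iff x').1
      ((map_eq_one_iff _ (φ0.trans e.symm).injective).1 hk))
  · refine MonoidHom.ext fun s => ?_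
    have hs : s ∈ fu.ker := by rw [h]; trivial
    exact congrArg Units.val (MonoidHom.mem_ker.1 hs)

end Cfsg.Agent.H84.LF
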